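import Cfsg.Agent.SteinbergChar.Longest
import Cfsg.Agent.SteinbergChar.CountChev
import Cfsg.Agent.Blocks.DefectDegree

/-!
The values of the Steinberg character at `p`-regular elements.
-/

set_option autoImplicit false

namespace CfsgLib.SteinbergChar

open CfsgLib.BNPair

section Group

variable {G : Type*} [Group G] [Finite G] (p : ℕ) [Fact p.Prime]

theorem dvd_orderOf_mul {s c : G} (hc : Commute s c) {a : ℕ} (hca : orderOf c = p ^ a) (hc1 : c ≠ 1)
    (hs : ¬ p ∣ orderOf s) : p ∣ orderOf (s * c) := by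
  have ha : a ≠ 0 := by rintro rfl; exact hc1 (orderOf_eq_one_iff.1 (by rw [hca, pow_zero]))
  have hcop : (orderOf s).Coprime (orderOf c) := by
    rw [hca]
    exact Nat.Coprime.pow_right _ ((Fact.out : p.Prime).coprime_iff_not_dvd.2 hs).symm
  rw [hc.orderOf_mul_eq_mul_orderOf_of_coprime hcop, hca]
  exact dvd_mul_of_dvd_right (dvd_pow_self p ha) _

/-- A function vanishing off the `p`-regular elements, summed over the coset `s U`. -/
theorem sum_coset_regular {U : Subgroup G} [Fintype U] (hU : IsPGroup p U) {s : G} (hs : ¬ p ∣ orderOf s)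
    (hnorm : ∀ u ∈ U, s⁻¹ * u * s ∈ U) {χ : G → ℂ} (hcl : ∀ g x : G, χ (x * g * x⁻¹) = χ g)
    (hzero : ∀ g, p ∣ orderOf g → χ g = 0) :
    (∑ u : U, χ (s * u)) * (Nat.card ((Subgroup.centralizer ({s} : Set G)).subgroupOf U) : ℂ) =
      (Nat.card U : ℂ) * χ s := by
  classical
  set C := (Subgroup.centralizer ({s} : Set G)).subgroupOf U with hC
  have hCc : ∀ c ∈ C, s * (c : G) = (c : G) * s := fun c hc =>
    Subgroup.mem_centralizer_iff.1 (Subgroup.mem_subgroupOf.1 hc) s rfl
  let f : (↥U ⧸ C) × ↥C → ↥U := fun q => ⟨s⁻¹ * ((q.1.out : G) * s * ((q.2 : ↥U) : G) * (q.1.out : G)⁻¹), by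
    rw [show s⁻¹ * ((q.1.out : G) * s * ((q.2 : ↥U) : G) * (q.1.out : G)⁻¹) =
      (s⁻¹ * (q.1.out : G) * s) * ((q.2 : ↥U) : G) * (q.1.out : G)⁻¹ by group]
    exact mul_mem (mul_mem (hnorm _ q.1.out.2) (q.2 : ↥U).2) (inv_mem q.1.out.2)⟩
  have hf : ∀ q, s * (f q : G) = (q.1.out : G) * (s * ((q.2 : ↥U) : G)) * (q.1.out : G)⁻¹ := fun q => by
    simp only [f]
    group
  have hinj : Function.Injective f := by
    rintro ⟨Q, c⟩ ⟨Q', c'⟩ h
    have e := congrArg (fun u : ↥U => s * (u : G)) h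
    simp only [hf] at e
    obtain ⟨a, ha⟩ := IsPGroup.iff_card.1 hU
    have hcop : Nat.Coprime (p ^ a) (orderOf s) := Nat.Coprime.pow_left _
      ((Fact.out : p.Prime).coprime_iff_not_dvd.2 hs)
    obtain ⟨⟨n, hn⟩, hn'⟩ :=
      And.intro (CfsgLib.Chars.Brauer.dvd_piExp hcop) (CfsgLib.Chars.Brauer.piExp_modEq_one hcop)
    have hk : ∀ c : ↥C, (s * ((c : ↥U) : G)) ^ CfsgLib.Chars.Brauer.piExp hcop = s := fun c => by
      have hc1 : ((c : ↥U) : G) ^ CfsgLib.Chars.Brauer.piExp hcop = 1 := by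
        have h1 : (c : ↥U) ^ (p ^ a) = 1 := by rw [← ha]; exact pow_card_eq_one'
        rw [hn, pow_mul, ← Subgroup.coe_pow, h1, OneMemClass.coe_one, one_pow]
      rw [(show Commute s ((c : ↥U) : G) from hCc _ c.2).mul_pow, hc1, mul_one,
        pow_eq_pow_iff_modEq.2 hn', pow_one]
    have e' := congrArg (fun g : G => g ^ CfsgLib.Chars.Brauer.piExp hcop) e
    simp only [conj_pow, hk] at e'
    have hQ : Q = Q' := by
      rw [← QuotientGroup.out_eq' Q, ← QuotientGroup.out_eq' Q', QuotientGroup.eq]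
      refine Subgroup.mem_subgroupOf.2 (Subgroup.mem_centralizer_iff.2 fun x hx => ?_)
      rw [Set.mem_singleton_iff] at hx
      subst hx
      simp only [Subgroup.coe_mul, Subgroup.coe_inv]
      calc x * ((Q.out : G)⁻¹ * (Q'.out : G)) = (Q.out : G)⁻¹ * ((Q.out : G) * x * (Q.out : G)⁻¹) * (Q'.out : G) := by group
        _ = _ := by rw [e']; group
    subst hQ
    exact Prod.ext rfl (Subtype.ext (Subtype.ext (by simpa using e)))
  have hbij : Function.Bijective f := by
    rw [Fintype.bijective_iff_injective_and_card]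
    refine ⟨hinj, ?_⟩
    rw [Fintype.card_prod, ← Nat.card_eq_fintype_card, ← Nat.card_eq_fintype_card, ← Nat.card_eq_fintype_card]
    exact (Subgroup.card_eq_card_quotient_mul_card_subgroup C).symm
  rw [← Fintype.sum_equiv (Equiv.ofBijective f hbij) (fun q => χ (s * (f q : G))) (fun u => χ (s * (u : G))) fun q => rfl,
    Fintype.sum_prod_type]
  have hin : ∀ Q : ↥U ⧸ C, ∑ c : ↥C, χ (s * (f (Q, c) : G)) = χ s := fun Q => by
    rw [Finset.sum_eq_single (1 : ↥C)]
    · rw [hf, hcl]
      simp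
    · intro c _ hc
      rw [hf, hcl]
      obtain ⟨b, hb⟩ := IsPGroup.iff_orderOf.1 hU (c : ↥U)
      rw [← Subgroup.orderOf_coe] at hb
      exact hzero _ (dvd_orderOf_mul p (hCc _ c.2) hb (fun h => hc (Subtype.ext (Subtype.ext h))) hs)
    · simp
  rw [Finset.sum_congr rfl fun Q _ => hin Q, Finset.sum_const, Finset.card_univ, ← Nat.card_eq_fintype_card,
    nsmul_eq_mul, Subgroup.card_eq_card_quotient_mul_card_subgroup C, Nat.cast_mul]
  ring

/-- An integral value at a `p`-regular element is divisible by the `p`-part of the centraliser. -/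
theorem dvd_value {χ : G → ℂ} (hχ : Cfsg.IsCharacter G χ) (hzero : ∀ g, p ∣ orderOf g → χ g = 0)
    {s : G} (hs : ¬ p ∣ orderOf s) {n : ℤ} (hn : χ s = (n : ℂ)) :
    (p : ℤ) ^ (Nat.card (Subgroup.centralizer ({s} : Set G))).factorization p ∣ n := by
  classical
  set C := Subgroup.centralizer ({s} : Set G)
  let Q : Sylow p C := Classical.arbitrary _
  set P := (Q : Subgroup C).map C.subtype
  have := Fintype.ofFinite P
  have hPc : ∀ u ∈ P, s * u = u * s := by
    rintro _ ⟨u, -, rfl⟩
    exact Subgroup.mem_centralizer_iff.1 u.2 s rfl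
  have hP : IsPGroup p P := Q.2.map _
  have hcard : Nat.card P = p ^ (Nat.card C).factorization p := by
    rw [← Q.card_eq_multiplicity]
    exact (Nat.card_congr ((Q : Subgroup C).equivMapOfInjective _ C.subtype_injective).toEquiv).symm
  have hav := CfsgLib.Blocks.isIntegral_average hχ P s hPc
  rw [Finset.sum_eq_single (1 : P)] at hav
  · rw [OneMemClass.coe_one, mul_one, hn] at hav
    have h2 : IsIntegral ℤ (((Nat.card P : ℚ))⁻¹ * (n : ℚ)) := by
      refine (isIntegral_algebraMap_iff (algebraMap ℚ ℂ).injective).1 ?_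
      simpa using hav
    obtain ⟨y, hy⟩ := IsIntegrallyClosed.isIntegral_iff.1 h2
    refine ⟨y, ?_⟩
    have h3 : (n : ℚ) = (Nat.card P : ℚ) * (y : ℚ) := by
      have hy' : (y : ℚ) = ((Nat.card P : ℚ))⁻¹ * (n : ℚ) := by simpa using hy
      rw [hy', ← mul_assoc, mul_inv_cancel₀ (Nat.cast_ne_zero.2 Nat.card_pos.ne'), one_mul]
    rw [hcard] at h3
    exact_mod_cast h3
  · intro c _ hc
    obtain ⟨b, hb⟩ := IsPGroup.iff_orderOf.1 hP c
    rw [← Subgroup.orderOf_coe] at hb
    exact hzero _ (dvd_orderOf_mul p (hPc c c.2) hb (fun h => hc (Subtype.ext h)) hs)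
  · simp

end Group

variable {G : Type*} [Group G] (P : Cfsg.BNPair G) [Finite G]

/-- Fixed cosets of a parabolic along `s U`, when `s` lies in no smaller parabolic. -/
theorem sum_coset_fix [Fintype P.S] [DecidableEq P.S] [Fintype (Weyl P)] {J K : Finset P.S}
    [DecidablePred (GoodRep P J K)]
    {U : Subgroup G} [Fintype U] (hUB : U ≤ P.B)
    (hUn : ∀ x ∈ para P J, ∀ u ∈ U, x * u * x⁻¹ ∈ U) {s : G} (hsJ : s ∈ para P J)
    (hmin : ∀ L ⊂ J, ∀ x ∈ para P J, x⁻¹ * s * x ∉ para P L)
    (hgood : ∀ w, GoodRep P J K w → ∀ (m : G) (hm : m ∈ P.N), toW P m hm = w →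
      ∀ x ∈ para P J, ∃ u ∈ U, m⁻¹ * u⁻¹ * x * m ∈ para P K) :
    ∑ u : U, Nat.card (MulAction.fixedBy (G ⧸ para P K) (s * (u : G))) =
      Nat.card U * (Finset.univ.filter (GoodRep P J K)).card := by
  classical
  have := Fintype.ofFinite (G ⧸ para P K)
  have hBJ : P.B ≤ para P J := le_sup_left
  have hBK : P.B ≤ para P K := le_sup_left
  choose m hm hmw using exists_toW P
  have hmc : ∀ w, m w ∈ cell P w := fun w => by have := self_mem_cell P (hm w); rwa [hmw] at this
  let z₀ : Weyl P → G ⧸ para P K := fun w => (m w : G ⧸ para P K)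
  let O : Weyl P → Finset (G ⧸ para P K) := fun w => Finset.univ.filter fun z => z ∈ MulAction.orbit U (z₀ w)
  let V : G ⧸ para P K → Finset U := fun z => Finset.univ.filter fun u => (s * (u : G)) • z = z
  have h1 : ∑ u : U, Nat.card (MulAction.fixedBy (G ⧸ para P K) (s * (u : G))) = ∑ z, (V z).card := by
    simp only [Nat.card_eq_fintype_card, Fintype.card_subtype, MulAction.mem_fixedBy, Finset.card_filter, V]
    exact Finset.sum_comm
  rw [h1]
  have hcover : ∀ z, (V z).card ≠ 0 → ∃ w ∈ Finset.univ.filter (GoodRep P J K), z ∈ O w := by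
    intro z hz
    obtain ⟨u, hu⟩ := Finset.card_ne_zero.1 hz
    replace hu := (Finset.mem_filter.1 hu).2
    induction z using QuotientGroup.induction_on with
    | _ g =>
      obtain ⟨n, hn, hgn⟩ := exists_mem_dc P g
      have hnN := closure_le_N P subset_rfl hn
      obtain ⟨w, hw, hL, hR, -⟩ := exists_min (J : Set P.S) (K : Set P.S) (toW P n hnN)
      obtain ⟨a, b, ha, hb, he⟩ := hw
      obtain ⟨x, hx, y, hy, rfl⟩ := (mem_dc P).1 hgn
      have ha' : m a ∈ para P J := (mem_para_iff P).2 ⟨a, ha, hmc a⟩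
      have hb' : m b ∈ para P K := (mem_para_iff P).2 ⟨b, hb, hmc b⟩
      have hB : (m a * m w * m b)⁻¹ * n ∈ P.B := (toW_eq_iff P (mul_mem (mul_mem (hm a) (hm w)) (hm b)) hnN).1 (by
        rw [toW_mul P (mul_mem (hm a) (hm w)) (hm b), toW_mul P (hm a) (hm w), hmw, hmw, hmw]
        exact he.symm)
      set X := x * m a with hX
      have hXJ : X ∈ para P J := mul_mem (hBJ hx) ha'
      have hz : ((x * n * y : G) : G ⧸ para P K) = X • z₀ w := by
        rw [MulAction.Quotient.smul_coe, smul_eq_mul, QuotientGroup.eq,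
          show (x * n * y)⁻¹ * (X * m w) = y⁻¹ * ((m a * m w * m b)⁻¹ * n)⁻¹ * (m b)⁻¹ by rw [hX]; group]
        exact mul_mem (mul_mem (hBK (inv_mem hy)) (hBK (inv_mem hB))) (inv_mem hb')
      rw [hz] at hu ⊢
      set h := X⁻¹ * (s * (u : G)) * X with hh
      have hhJ : h ∈ para P J := mul_mem (mul_mem (inv_mem hXJ) (mul_mem hsJ (hBJ (hUB u.2)))) hXJ
      have hhK : (m w)⁻¹ * h * m w ∈ para P K := by
        rw [smul_smul, MulAction.Quotient.smul_coe, MulAction.Quotient.smul_coe, smul_eq_mul, smul_eq_mul,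
          QuotientGroup.eq] at hu
        have := inv_mem hu
        simpa [hh, mul_assoc] using this
      obtain ⟨a', ha'', hca⟩ := (mem_para_iff P).1 hhJ
      obtain ⟨b', hb'', hcb⟩ := (mem_para_iff P).1 hhK
      have e1 := cell_mul_of_len a' w (len_mul_minL P ha'' hL) hca (hmc w)
      have e2 := cell_mul_of_len w b' (len_minR_mul P hR hb'') (hmc w) hcb
      rw [← mul_assoc, mul_inv_cancel_left] at e2
      have e := eq_of_mem_cell P e1 e2
      have hJ' := inWord_filter_of_mul_eq P hL ha'' hb'' hR e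
      set J' := J.filter fun t => InWord P (K : Set P.S) (w⁻¹ * gen P t * w) with hJ'def
      have hJJ : J' = J := by
        by_contra hne
        have hh' : h ∈ para P J' := (mem_para_iff P).2 ⟨a', hJ', hca⟩
        refine hmin J' (lt_of_le_of_ne (Finset.filter_subset _ _) hne) X hXJ ?_
        have hu' : X⁻¹ * (u : G)⁻¹ * X ∈ para P J' := by
          have := hUn X⁻¹ (inv_mem hXJ) _ (inv_mem u.2)
          rw [inv_inv] at this
          exact (le_sup_left : P.B ≤ para P J') (hUB this)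
        have := mul_mem hh' hu'
        simpa [hh, mul_assoc] using this
      have hG : GoodRep P J K w := ⟨hL, hR, fun t ht => (Finset.mem_filter.1 (hJJ.symm ▸ ht : t ∈ J')).2⟩
      refine ⟨w, Finset.mem_filter.2 ⟨Finset.mem_univ _, hG⟩, Finset.mem_filter.2 ⟨Finset.mem_univ _, ?_⟩⟩
      obtain ⟨v, hv, hv'⟩ := hgood w hG (m w) (hm w) (hmw w) X hXJ
      refine ⟨⟨v, hv⟩, ?_⟩
      change v • z₀ w = X • z₀ w
      rw [MulAction.Quotient.smul_coe, MulAction.Quotient.smul_coe, smul_eq_mul, smul_eq_mul, QuotientGroup.eq]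
      simpa [mul_assoc] using hv'
  have hdisj : Set.PairwiseDisjoint ((Finset.univ.filter (GoodRep P J K) : Finset (Weyl P)) : Set (Weyl P)) O := by
    intro w hw w' hw' hne
    refine Finset.disjoint_left.2 fun z hz hz' => hne ?_
    obtain ⟨⟨u, hu⟩, huz⟩ := (Finset.mem_filter.1 hz).2
    obtain ⟨⟨u', hu'⟩, huz'⟩ := (Finset.mem_filter.1 hz').2
    have e : (u' : G) • z₀ w' = u • z₀ w := huz'.trans huz.symm
    rw [MulAction.Quotient.smul_coe, MulAction.Quotient.smul_coe, smul_eq_mul, smul_eq_mul, QuotientGroup.eq] at e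
    obtain ⟨c, hc, hkc⟩ := (mem_para_iff P).1 e
    have hp : u⁻¹ * u' ∈ P.B := mul_mem (inv_mem (hUB hu)) (hUB hu')
    obtain ⟨c', hc', h2⟩ := cell_mul_inWord_right P hc (cell_mul_left P hp (hmc w')) hkc
    rw [show u⁻¹ * u' * m w' * ((u' * m w')⁻¹ * (u * m w)) = m w by group] at h2
    have e2 := eq_of_mem_cell P (hmc w) h2
    obtain ⟨hwL, hwR, -⟩ := (Finset.mem_filter.1 (Finset.mem_coe.1 hw)).2
    obtain ⟨hwL', hwR', -⟩ := (Finset.mem_filter.1 (Finset.mem_coe.1 hw')).2
    exact unique_min ⟨1, c', .one _, hc', by rw [one_mul]; exact e2⟩ hwL' hwR' hwL hwR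
  have horb : ∀ w ∈ Finset.univ.filter (GoodRep P J K), ∑ z ∈ O w, (V z).card = Nat.card U := by
    intro w hw
    have hG := (Finset.mem_filter.1 hw).2
    have hconst : ∀ z ∈ O w, (V z).card = Nat.card (MulAction.stabilizer U (z₀ w)) := by
      intro z hz
      obtain ⟨⟨a, ha⟩, haz⟩ := (Finset.mem_filter.1 hz).2
      obtain ⟨b, hb, hb'⟩ := hgood w hG (m w) (hm w) (hmw w) (s⁻¹ * a) (mul_mem (inv_mem hsJ) (hBJ (hUB ha)))
      have hbz : b • z₀ w = s⁻¹ • z := by
        rw [← haz]
        change b • z₀ w = s⁻¹ • (a • z₀ w)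
        rw [smul_smul, MulAction.Quotient.smul_coe, MulAction.Quotient.smul_coe, smul_eq_mul, smul_eq_mul,
          QuotientGroup.eq]
        simpa [mul_assoc] using hb'
      have key : ∀ u : U, (s * (u : G)) • z = z ↔ (u : G) • (a • z₀ w) = b • z₀ w := fun u => by
        rw [show a • z₀ w = z from haz, hbz, mul_smul]
        constructor
        · intro h; rw [eq_inv_smul_iff]; exact h
        · intro h; rw [h, smul_inv_smul]
      rw [← Fintype.card_subtype, ← Nat.card_eq_fintype_card]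
      refine Nat.card_congr (Equiv.subtypeEquiv ((Equiv.mulLeft (⟨b, hb⟩ : U)⁻¹).trans (Equiv.mulRight ⟨a, ha⟩)) fun u => ?_)
      rw [key, MulAction.mem_stabilizer_iff]
      change (u : G) • (a • z₀ w) = b • z₀ w ↔ (b⁻¹ * (u : G) * a) • z₀ w = z₀ w
      rw [mul_smul, mul_smul, inv_smul_eq_iff]
    rw [Finset.sum_congr rfl hconst, Finset.sum_const, smul_eq_mul, ← Fintype.card_subtype, ← Nat.card_eq_fintype_card]
    rw [← Nat.card_prod]
    exact Nat.card_congr (MulAction.orbitProdStabilizerEquivGroup U (z₀ w))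
  rw [← Finset.sum_subset (Finset.subset_univ ((Finset.univ.filter (GoodRep P J K)).biUnion O)) (fun z _ hz => by
      by_contra hne
      obtain ⟨w, hw, hzw⟩ := hcover z hne
      exact hz (Finset.mem_biUnion.2 ⟨w, hw, hzw⟩)),
    Finset.sum_biUnion hdisj, Finset.sum_congr rfl horb, Finset.sum_const, smul_eq_mul, mul_comm]

section Chev

open Cfsg.Lie CfsgLib.Chevalley

variable {D : ChevalleyDatum} (S : Sys D) (F : Type*) [Field F]

/-- Above a minimal coset representative the radical carries the whole parabolic. -/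
theorem exists_radU_mul {J K : Finset (S.bnPair F).S} {w : Weyl (S.bnPair F)} (hw : GoodRep (S.bnPair F) J K w)
    {m : ↥(D.group F)} (hm : m ∈ (S.bnPair F).N) (hmw : toW (S.bnPair F) m hm = w)
    {x : ↥(D.group F)} (hx : x ∈ para (S.bnPair F) J) :
    ∃ u ∈ radU S F J, m⁻¹ * u⁻¹ * x * m ∈ para (S.bnPair F) K := by
  classical
  obtain ⟨hL, -, hK⟩ := hw
  have hBJ : (S.bnPair F).B ≤ para (S.bnPair F) J := le_sup_left
  have hBK : (S.bnPair F).B ≤ para (S.bnPair F) K := le_sup_left
  let Q : Subgroup ↥(D.group F) :=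
    { carrier := {x | x ∈ para (S.bnPair F) J ∧ ∃ u ∈ radU S F J, m⁻¹ * u⁻¹ * x * m ∈ para (S.bnPair F) K}
      one_mem' := ⟨one_mem _, 1, one_mem _, by simp [mul_assoc]⟩
      mul_mem' := by
        rintro x y ⟨hx, u, hu, hxu⟩ ⟨hy, v, hv, hyv⟩
        refine ⟨mul_mem hx hy, u * ((u⁻¹ * x) * v * (u⁻¹ * x)⁻¹), mul_mem hu (radU_conj S F J
          (mul_mem (inv_mem (hBJ (Subgroup.comap_mono le_sup_left (Subgroup.comap_mono (uSub_le_posUnipotent F _) hu)))) hx) hv), ?_⟩
        have := mul_mem hxu hyv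
        convert this using 1
        group
      inv_mem' := by
        rintro x ⟨hx, u, hu, hxu⟩
        refine ⟨inv_mem hx, x⁻¹ * u⁻¹ * x, ?_, ?_⟩
        · have := radU_conj S F J (inv_mem hx) (inv_mem hu)
          rwa [inv_inv] at this
        · have := inv_mem hxu
          convert this using 1
          group }
  have hle : para (S.bnPair F) J ≤ Q := by
    refine sup_le (fun b hb => ?_) ((Subgroup.closure_le _).2 ?_)
    · obtain ⟨v, hv, c, e⟩ := (S.mem_borel F).1 hb
      have hc : tor D F c ∈ D.diagonalSubgroup F := by rw [S.diagonal_eq]; exact ⟨c, rfl⟩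
      rw [show b = ⟨v, S.posUnipotent_le_group F hv⟩ * ⟨tor D F c, S.diagonal_le_group F hc⟩ from Subtype.ext e]
      refine mul_mem ?_ ⟨hBJ (Subgroup.mem_subgroupOf.2 (Subgroup.mem_sup_right hc)), 1, one_mem _, hBK ?_⟩
      swap
      · rw [inv_one, mul_one, S.bnPair_B, Subgroup.mem_subgroupOf]
        refine Subgroup.mem_sup_right ?_
        simpa using (Subgroup.mem_normalizer_iff.mp (S.monomial_le_normalizer F (inv_mem hm)) _).mp hc
      · have hle2 : D.posUnipotent F ≤ Q.map (D.group F).subtype := by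
          rw [← uSub_univ]
          refine S.uSub_le F fun r _ hr hr' t => ?_
          have hgr : S.xG F r t ∈ D.group F :=
            S.posUnipotent_le_group F (by rw [← uSub_univ]; exact S.xG_mem_uSub F (Set.mem_univ _) hr hr' t)
          refine ⟨⟨_, hgr⟩, ⟨hBJ (Subgroup.mem_subgroupOf.2 (S.xG_mem_borel F hr hr' t)), ?_⟩, rfl⟩
          by_cases hout : r ∈ outC S F J
          · refine ⟨⟨_, hgr⟩, S.xG_mem_uSub F hout hr hr' t, ?_⟩
            rw [mul_assoc m⁻¹, inv_mul_cancel, mul_one, inv_mul_cancel]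
            exact one_mem _
          · refine ⟨1, one_mem _, hBK ?_⟩
            rw [inv_one, mul_one, S.bnPair_B, Subgroup.mem_subgroupOf]
            set nn : ↥(D.monomialSubgroup F) := ⟨(m : GL D.Idx F), hm⟩⁻¹
            have hperm : S.perm F nn = wPerm S F w⁻¹ := by rw [map_inv, map_inv, ← hmw, wPerm_toW]
            obtain ⟨c', -, hct⟩ := S.conj_root F nn ⟨r, hr'⟩
            have hpos : ∀ i : Fin D.rank, simpleGen S F i ∈ J → D.nroots / 2 ≤ (wPerm S F w⁻¹ (S.simpleF i) : ℕ) := by
              intro i hi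
              by_contra hlt
              have h2 := (card_mul_srefl_le S i (wPerm_negF S F w⁻¹)).2 (by omega)
              rw [← len_eq_card S F, ← wPerm_gen S F, ← map_mul, ← len_eq_card S F,
                show w⁻¹ * gen _ (simpleGen S F i) = (gen (S.bnPair F) (simpleGen S F i) * w)⁻¹ by rw [mul_inv_rev, gen_inv],
                len_inv, len_inv] at h2
              have := hL _ (Finset.mem_coe.2 hi)
              omega
            have hp : D.nroots / 2 ≤ (wPerm S F w⁻¹ ⟨r, hr'⟩ : ℕ) := by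
              obtain ⟨L, eL⟩ := exists_wperm_eq S F w⁻¹
              rw [eL] at hpos ⊢
              by_contra hlt
              have hge : ∀ j < D.rank, 0 ≤ S.vec j (S.wperm L ⟨r, hr'⟩) := by
                intro j hj
                rw [S.vec_wperm L _ j hj]
                refine Finset.sum_nonneg fun q _ => ?_
                have h0 := S.vec_pos r hr' hr q q.isLt
                by_cases hq : simpleGen S F q ∈ J
                · exact mul_nonneg h0 (S.vec_pos _ (Fin.isLt _) (hpos q hq) j hj)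
                · have h1 : ¬ 0 < S.vec q r := fun h => hout ⟨q, hq, h⟩
                  change (0 : ℤ) ≤ S.vec q r * _
                  rw [show S.vec q r = 0 by omega, zero_mul]
              set t' := S.wperm L ⟨r, hr'⟩
              refine S.wf.neg_ne _ (Fin.isLt t') (S.vec_inj _ (S.wf.neg_lt _ (Fin.isLt _)) _ (Fin.isLt _) fun j hj => ?_)
              have := hge j hj
              have h5 := S.vec_pos _ (S.wf.neg_lt _ (Fin.isLt t')) (S.root_lt_pos (Fin.isLt _) (by omega)) j hj
              rw [S.vec_neg j hj _ (Fin.isLt _)] at h5 ⊢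
              omega
            refine Subgroup.mem_sup_left ?_
            change (m : GL D.Idx F)⁻¹ * S.xG F r t * (m : GL D.Idx F) ∈ D.posUnipotent F
            rw [show (m : GL D.Idx F)⁻¹ * S.xG F r t * (m : GL D.Idx F) =
              (nn : GL D.Idx F) * S.xG F (⟨r, hr'⟩ : Fin D.nroots) t * (nn : GL D.Idx F)⁻¹ by simp [nn], (hct t).1, ← uSub_univ]
            exact S.xG_mem_uSub F (Set.mem_univ _) (by rw [hperm]; exact hp) (Fin.isLt _) _
        obtain ⟨q, hq, hq'⟩ := hle2 hv
        rwa [show (⟨v, S.posUnipotent_le_group F hv⟩ : ↥(D.group F)) = q from Subtype.ext hq'.symm]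
    · rintro _ ⟨t, ht, rfl⟩
      refine ⟨(mem_para_iff _).2 ⟨_, InWord.gen ht, self_mem_cell_gen _ t⟩, 1, one_mem _, ?_⟩
      rw [inv_one, mul_one]
      refine (mem_para_iff _).2 ⟨_, hK t (Finset.mem_coe.1 ht), ?_⟩
      have := self_mem_cell (S.bnPair F) (mul_mem (mul_mem (inv_mem hm) ((S.bnPair F).subset t.2)) hm)
      rw [toW_mul _ (mul_mem (inv_mem hm) ((S.bnPair F).subset t.2)) hm, toW_mul _ (inv_mem hm) ((S.bnPair F).subset t.2),
        toW_inv _ hm, hmw] at this
      exact this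
  exact (hle hx).2

variable [Fintype F] (p : ℕ) [Fact p.Prime] [CharP F p]

include S in
/-- Semisimple values of the Steinberg character. -/
theorem steinbergCharacter_semisimple (g : ↥(D.group F)) (hg : ¬ p ∣ orderOf g) :
    D.steinbergCharacter F g = ((p ^ (Nat.card ↥(Subgroup.centralizer ({g} : Set ↥(D.group F)))).factorization p : ℕ) : ℂ) ∨
      D.steinbergCharacter F g = -((p ^ (Nat.card ↥(Subgroup.centralizer ({g} : Set ↥(D.group F)))).factorization p : ℕ) : ℂ) := by
  classical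
  have := Fintype.ofFinite ↥(D.group F)
  have : Fintype (Weyl (S.bnPair F)) := Fintype.ofFinite _
  have hirr := isIrrCharacter_steinberg S F
  have hcl : ∀ a x : ↥(D.group F), D.steinbergCharacter F (x * a * x⁻¹) = D.steinbergCharacter F a :=
    fun a x => CfsgLib.Chars.isClassFunction_coe ⟨_, hirr⟩ a x
  have hchar : Cfsg.IsCharacter ↥(D.group F) (D.steinbergCharacter F) :=
    CfsgLib.Chars.isCharacter_coe ⟨_, hirr⟩
  have hzero : ∀ a, p ∣ orderOf a → D.steinbergCharacter F a = 0 := fun a => steinbergCharacter_eq_zero S F p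
  set X := (Finset.univ : Finset (S.bnPair F).S).powerset.filter fun J => ∃ y, y⁻¹ * g * y ∈ para (S.bnPair F) J
  have hXne : X.Nonempty := by
    refine ⟨Finset.univ, Finset.mem_filter.2 ⟨Finset.mem_powerset.2 (subset_refl _), 1, ?_⟩⟩
    obtain ⟨n, hn, hgn⟩ := exists_mem_dc (S.bnPair F) (1⁻¹ * g * 1)
    obtain ⟨M, hM⟩ := exists_word (S.bnPair F) (toW (S.bnPair F) n (closure_le_N _ subset_rfl hn))
    exact (mem_para_iff _).2 ⟨_, ⟨M, fun s _ => Finset.mem_coe.2 (Finset.mem_univ _), hM⟩,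
      (mem_cell_toW _ _).2 hgn⟩
  obtain ⟨J, hJX, hJmin⟩ := Finset.exists_min_image X Finset.card hXne
  obtain ⟨y, hy⟩ := (Finset.mem_filter.1 hJX).2
  set s := y⁻¹ * g * y with hs_def
  have hs : ¬ p ∣ orderOf s := by
    rwa [hs_def, show y⁻¹ * g * y = MulAut.conj y⁻¹ g by simp, MulEquiv.orderOf_eq]
  have hmin : ∀ L ⊂ J, ∀ x ∈ para (S.bnPair F) J, x⁻¹ * s * x ∉ para (S.bnPair F) L := by
    intro L hL x _ h
    have := hJmin L (Finset.mem_filter.2 ⟨Finset.mem_powerset.2 (Finset.subset_univ _), y * x, by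
      rwa [hs_def, show x⁻¹ * (y⁻¹ * g * y) * x = (y * x)⁻¹ * g * (y * x) by group] at h⟩)
    exact absurd (Finset.card_lt_card hL) (by omega)
  set U := radU S F J with hU
  have hUB : U ≤ (S.bnPair F).B :=
    (Subgroup.comap_mono (uSub_le_posUnipotent F _)).trans (Subgroup.comap_mono le_sup_left)
  have hUp : IsPGroup p U := (isPGroup_posUnipotent S F p).to_le (Subgroup.comap_mono (uSub_le_posUnipotent F _))
  have hsum := sum_coset_regular p hUp hs (fun u hu => by
    have := radU_conj S F J (inv_mem hy) hu; rwa [inv_inv] at this) hcl hzero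
  obtain ⟨w₀, hw₀, hd₀⟩ := exists_desc S F (Finset.univ : Finset (S.bnPair F).S)
  obtain ⟨wJ, hwJ, hdJ⟩ := exists_desc S F J
  have halt := alt_sum_good (S.bnPair F) J
    (w₀ := w₀) (wJ := wJ)
    (fun w => ⟨fun h => desc_unique S F h.1 h.2 hw₀ hd₀, fun h => h ▸ ⟨hw₀, hd₀⟩⟩)
    (fun w => ⟨fun h => desc_unique S F h.1 h.2 hwJ hdJ, fun h => h ▸ ⟨hwJ, hdJ⟩⟩)
  have hval : ∑ u : U, D.steinbergCharacter F (s * (u : ↥(D.group F))) = (Nat.card U : ℂ) * (-1) ^ J.card := by
    rw [← halt, steinbergCharacter_eq S]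
    simp only [stChar, Cfsg.fixedPointCharacter]
    rw [Finset.sum_comm, Finset.mul_sum]
    refine Finset.sum_congr rfl fun K _ => ?_
    rw [← Finset.mul_sum, ← Nat.cast_sum,
      sum_coset_fix (S.bnPair F) hUB (fun x hx u hu => radU_conj S F J hx hu) hy hmin
        (fun w hw m hm hmw x hx => exists_radU_mul S F hw hm hmw hx), Nat.cast_mul]
    ring
  rw [hval] at hsum
  set CU := (Subgroup.centralizer ({s} : Set ↥(D.group F))).subgroupOf U with hCU
  have hs' : D.steinbergCharacter F s = (((-1) ^ J.card * Nat.card CU : ℤ) : ℂ) := by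
    have hU0 : (Nat.card U : ℂ) ≠ 0 := Nat.cast_ne_zero.2 Nat.card_pos.ne'
    refine mul_left_cancel₀ hU0 ?_
    rw [← hsum]
    push_cast
    ring
  have hgs : D.steinbergCharacter F g = D.steinbergCharacter F s := by
    rw [hs_def]
    have := hcl g y⁻¹
    rw [inv_inv] at this
    exact this.symm
  have hCcard : Nat.card (Subgroup.centralizer ({s} : Set ↥(D.group F))) =
      Nat.card (Subgroup.centralizer ({g} : Set ↥(D.group F))) :=
    Nat.card_congr ((MulAut.conj y).toEquiv.subtypeEquiv fun x => by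
      simp only [Subgroup.mem_centralizer_iff, Set.mem_singleton_iff, forall_eq, MulEquiv.toEquiv_eq_coe,
        MulEquiv.coe_toEquiv, MulAut.conj_apply, hs_def]
      constructor <;> intro h
      · calc g * (y * x * y⁻¹) = y * (y⁻¹ * g * y * x) * y⁻¹ := by group
          _ = _ := by rw [h]; group
      · calc y⁻¹ * g * y * x = y⁻¹ * (g * (y * x * y⁻¹)) * y := by group
          _ = _ := by rw [h]; group)
  rw [← hCcard, hgs]
  set e := (Nat.card (Subgroup.centralizer ({s} : Set ↥(D.group F)))).factorization p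
  have hdvd : p ^ e ∣ Nat.card CU := by
    have h := dvd_value p hchar hzero hs hs'
    have h' : ((p ^ e : ℕ) : ℤ) ∣ (Nat.card CU : ℤ) := by
      push_cast
      exact (Int.isUnit_iff.2 (neg_one_pow_eq_or ℤ J.card)).dvd_mul_left.1 h
    exact Int.natCast_dvd_natCast.1 h'
  have hdvd2 : Nat.card CU ∣ p ^ e := by
    have h1 : Nat.card CU ∣ Nat.card (Subgroup.centralizer ({s} : Set ↥(D.group F))) :=
      Subgroup.card_dvd_of_injective
        (MonoidHom.codRestrict (U.subtype.comp CU.subtype) (Subgroup.centralizer ({s} : Set ↥(D.group F)))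
          (fun c => c.2))
        (fun a b h => Subtype.ext (Subtype.ext (congrArg Subtype.val h :)))
    obtain ⟨b, hb⟩ := IsPGroup.iff_card.1 (hUp.to_subgroup CU)
    rw [hb] at h1 ⊢
    exact Nat.pow_dvd_pow p ((Fact.out : p.Prime).pow_dvd_iff_le_factorization Nat.card_pos.ne' |>.1 h1)
  rw [← Nat.dvd_antisymm hdvd2 hdvd, hs']
  rcases neg_one_pow_eq_or ℤ J.card with h | h <;> simp [h]

end Chev

end CfsgLib.SteinbergChar
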