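import Cfsg.Agent.Blocks.BrauerBasis.Simples

/-!
The number of simple factors of a modular group algebra is the number of `p`-regular classes.
-/

set_option autoImplicit false
open scoped MonoidAlgebra
open MonoidAlgebra (single)
open Cfsg CfsgLib.Blocks CfsgLib.Blocks.BrauerBasis

namespace CfsgLib.SteinbergChar

universe u v

/-- The simple factors are as many as the `p`-regular classes. -/
theorem natCard_regular_classes {k : Type v} [Field k] [IsAlgClosed k] {p : ℕ} [Fact p.Prime] [CharP k p]
    {G : Type u} [Group G] [Fintype G] {n : ℕ} {d : Fin n → ℕ} [∀ c, NeZero (d c)]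
    (f : k[G] →ₐ[k] MatsOf k d) (hf : Function.Surjective f) (hker : ∀ x, f x = 0 → IsNilpotent x) :
    Nat.card {c : ConjClasses G // ∃ g, ConjClasses.mk g = c ∧ IsPRegular p g} = n := by
  classical
  have hp := (Fact.out : p.Prime)
  let T : Fin n → k[G] →ₗ[k] k := fun c =>
    (Matrix.traceLinearMap (Fin (d c)) k k).comp ((LinearMap.proj c).comp f.toLinearMap)
  have hT : ∀ c a, T c a = (f a c).trace := fun _ _ => rfl
  have hTsym : ∀ c a b, T c (a * b) = T c (b * a) := fun c a b => by
    rw [hT, hT, map_mul, map_mul, Pi.mul_apply, Pi.mul_apply, Matrix.trace_mul_comm]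
  have hexp : ∀ a : k[G], a = ∑ g : G, a.coeff g • single g (1 : k) := fun a => by
    refine MonoidAlgebra.ext (Finsupp.ext fun x => ?_)
    rw [MonoidAlgebra.coeff_sum, Finsupp.finsetSum_apply, Finset.sum_eq_single x]
    · simp
    · intro b _ hb
      simp [Finsupp.single_apply, hb]
    · simp
  have hlin : ∀ (L : k[G] →ₗ[k] k) a, L a = ∑ g : G, a.coeff g * L (single g 1) := fun L a => by
    conv_lhs => rw [hexp a]
    rw [map_sum]
    exact Finset.sum_congr rfl fun g _ => by rw [map_smul, smul_eq_mul]
  let t : Fin n → G → k := fun c g => T c (single g 1)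
  -- traces only see the regular part
  have htreg : ∀ c (u s : G), Commute u s → (∃ j, orderOf u = p ^ j) → t c (u * s) = t c s := by
    intro c u s hc ⟨j, hj⟩
    let π := (Pi.evalAlgHom k (fun c => Matrix (Fin (d c)) (Fin (d c)) k) c).comp f
    show (π (single (u * s) 1)).trace = (π (single s 1)).trace
    have e1 : single (u * s) (1 : k) = single u 1 * single s 1 := by
      rw [MonoidAlgebra.single_mul_single, mul_one]
    have hus : Commute (single u (1 : k)) (single s 1) := by
      show _ * _ = _ * _
      rw [MonoidAlgebra.single_mul_single, MonoidAlgebra.single_mul_single, hc.eq]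
    have hnil : IsNilpotent (π (single u 1 * single s 1) - π (single s 1)) := by
      have e : π (single u 1 * single s 1) - π (single s 1) =
          (π (single u 1) - 1) * π (single s 1) := by rw [map_mul, sub_mul, one_mul]
      rw [e]
      refine (hus.map π).sub_left (Commute.one_left _) |>.isNilpotent_mul_right ⟨p ^ j, ?_⟩
      rw [sub_pow_char_pow_of_commute (p := p) (n := j) (Commute.one_right _), ← map_pow,
        MonoidAlgebra.single_pow, one_pow, ← hj, pow_orderOf_eq_one, ← MonoidAlgebra.one_def,
        map_one, one_pow, sub_self]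
    have := (Matrix.isNilpotent_trace_of_isNilpotent hnil).eq_zero
    rw [e1]
    rwa [Matrix.trace_sub, sub_eq_zero] at this
  have htconj : ∀ c g h, t c (h * g * h⁻¹) = t c g := by
    intro c g h
    show T c (single (h * g * h⁻¹) 1) = T c (single g 1)
    rw [show single (h * g * h⁻¹) (1 : k) = single h 1 * single (g * h⁻¹) 1 by
      rw [MonoidAlgebra.single_mul_single, mul_one, mul_assoc], hTsym,
      MonoidAlgebra.single_mul_single, mul_one, inv_mul_cancel_right]
  have hindep : ∀ a : Fin n → k, (∀ g, IsPRegular p g → ∑ i, a i * t i g = 0) → a = 0 := by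
    intro a ha
    have hall : ∀ g, ∑ i, a i * t i g = 0 := by
      intro g
      obtain ⟨u, w, hw, hc, hu, hr⟩ := exists_isPPart (G := G) hp g
      rw [← hw, ← ha w hr]
      exact Finset.sum_congr rfl fun i _ => by rw [htreg i u w hc hu]
    funext c
    obtain ⟨x, hx⟩ := hf (unitAt c)
    have h : ∑ i, a i * T i x = 0 := by
      simp only [fun i => hlin (T i) x, Finset.mul_sum]
      rw [Finset.sum_comm]
      refine Finset.sum_eq_zero fun g _ => ?_
      rw [Finset.sum_congr rfl fun i _ => mul_left_comm _ _ _, ← Finset.mul_sum]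
      exact mul_eq_zero_of_right _ (hall g)
    simp only [hT, hx, trace_unitAt] at h
    simpa using h
  have hspan : ∀ F : G → k, (∀ g h, F (h * g * h⁻¹) = F g) →
      ∃ a : Fin n → k, ∀ g, IsPRegular p g → F g = ∑ i, a i * t i g := by
    intro F hF
    obtain ⟨r, hrconj, hrreg, hrid, hrval⟩ := exists_regular_part (G := G) (p := p)
    let F' : G → k := fun g => F (r g)
    have hF' : ∀ g h, F' (h * g * h⁻¹) = F' g := fun g h => by simp only [F', hrconj, hF]
    let L : k[G] →ₗ[k] k :=
      { toFun := fun z => ∑ g : G, z.coeff g * F' g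
        map_add' := fun x y => by simp [add_mul, Finset.sum_add_distrib]
        map_smul' := fun r x => by simp [Finset.mul_sum, mul_assoc] }
    have hLs : ∀ g, L (single g 1) = F' g := fun g => by
      show ∑ x : G, (single g (1 : k)).coeff x * F' x = _
      rw [Finset.sum_eq_single g]
      · simp
      · intro x _ hx; simp [Finsupp.single_apply, Ne.symm hx]
      · simp
    have hL0 : ∀ x, f x = 0 → L x = 0 := fun x hx =>
      sum_eq_zero_of_isNilpotent (p := p) hF'
        (fun u s hc hu hs => by
          simp only [F', hrval u s hc hu hs, hrid s hs])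
        (fun g => by
          obtain ⟨u, w, hw, hc, hu, hr⟩ := exists_isPPart (G := G) hp g
          exact ⟨u, w, hw, hc, hu, hr⟩) (hker x hx)
    have hLsym : ∀ x y, L (x * y) = L (y * x) := by
      intro x y
      induction x using MonoidAlgebra.induction_linear with
      | zero => simp
      | add x x' hx hx' => simp [add_mul, mul_add, hx, hx']
      | single g r =>
        induction y using MonoidAlgebra.induction_linear with
        | zero => simp
        | add y y' hy hy' => simp [add_mul, mul_add, hy, hy']
        | single h s =>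
          rw [MonoidAlgebra.single_mul_single, MonoidAlgebra.single_mul_single,
            show single (g * h) (r * s) = (r * s) • single (g * h) (1 : k) by simp,
            show single (h * g) (s * r) = (s * r) • single (h * g) (1 : k) by simp,
            map_smul, map_smul, hLs, hLs, mul_comm r s, ← hF' (h * g) g,
            show g * (h * g) * g⁻¹ = g * h by group]
    obtain ⟨sec, hsec⟩ := f.toLinearMap.exists_rightInverse_of_surjective (LinearMap.range_eq_top.2 hf)
    have hsec' : ∀ z, f (sec z) = z := fun z => LinearMap.congr_fun hsec z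
    have hwd : ∀ x, L (sec (f x)) = L x := fun x => by
      rw [← sub_eq_zero, ← map_sub]
      exact hL0 _ (by rw [map_sub, hsec', sub_self])
    have hsymD : ∀ z w, (L.comp sec) (z * w) = (L.comp sec) (w * z) := fun z w => by
      obtain ⟨x, rfl⟩ := hf z
      obtain ⟨y, rfl⟩ := hf w
      rw [← map_mul, ← map_mul, LinearMap.comp_apply, LinearMap.comp_apply, hwd, hwd, hLsym]
    refine ⟨fun c => L (sec (unitAt c)), fun g hg => ?_⟩
    have h := traceLike_eq_sum (L.comp sec) hsymD (f (single g 1))
    rw [LinearMap.comp_apply, hwd, hLs] at h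
    rw [show F g = F' g by simp only [F', hrid g hg], h]
    exact Finset.sum_congr rfl fun c _ => mul_comm _ _
  let X := {c : ConjClasses G // ∃ g, ConjClasses.mk g = c ∧ IsPRegular p g}
  have hrep : ∀ x : X, ∃ g, ConjClasses.mk g = x.1 ∧ IsPRegular p g := fun x => x.2
  choose r hr hrr using hrep
  have hcl : ∀ (F : G → k), (∀ g h, F (h * g * h⁻¹) = F g) → ∀ g g', IsConj g g' → F g = F g' := by
    intro F hF g g' hgg
    obtain ⟨c, hc⟩ := isConj_iff.1 hgg
    rw [← hc, hF]
  let Φ : (Fin n → k) →ₗ[k] (X → k) :=
    { toFun := fun a x => ∑ i, a i * t i (r x)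
      map_add' := fun a b => funext fun x => by simp [add_mul, Finset.sum_add_distrib]
      map_smul' := fun c a => funext fun x => by simp [Finset.mul_sum, mul_assoc] }
  have hinj : Function.Injective Φ := by
    refine (injective_iff_map_eq_zero Φ).2 fun a ha => hindep a fun g hg => ?_
    have h := congrFun ha ⟨ConjClasses.mk g, g, rfl, hg⟩
    have hc : IsConj (r ⟨ConjClasses.mk g, g, rfl, hg⟩) g := ConjClasses.mk_eq_mk_iff_isConj.1 (hr _)
    rw [← hcl (fun x => ∑ i, a i * t i x) (fun x y => by simp only [htconj]) _ _ hc]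
    exact h
  have hsurj : Function.Surjective Φ := by
    intro y
    obtain ⟨a, ha⟩ := hspan (fun g => if h : ∃ x, IsConj x g ∧ IsPRegular p x then
      y ⟨ConjClasses.mk g, h.choose, ConjClasses.mk_eq_mk_iff_isConj.2 h.choose_spec.1, h.choose_spec.2⟩ else 0)
      fun g h => by
        have hgc : IsConj g (h * g * h⁻¹) := isConj_iff.2 ⟨h, rfl⟩
        by_cases hx : ∃ x, IsConj x g ∧ IsPRegular p x
        · have hx' : ∃ x, IsConj x (h * g * h⁻¹) ∧ IsPRegular p x :=
            ⟨hx.choose, hx.choose_spec.1.trans hgc, hx.choose_spec.2⟩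
          rw [dif_pos hx, dif_pos hx']
          exact congrArg y (Subtype.ext (ConjClasses.mk_eq_mk_iff_isConj.2 hgc.symm))
        · rw [dif_neg hx, dif_neg fun hh => hx ⟨hh.choose, hh.choose_spec.1.trans hgc.symm, hh.choose_spec.2⟩]
    refine ⟨a, funext fun x => ?_⟩
    show ∑ i, a i * t i (r x) = y x
    rw [← ha _ (hrr x), dif_pos ⟨r x, IsConj.refl _, hrr x⟩]
    exact congrArg y (Subtype.ext (hr x))
  have := Fintype.ofFinite X
  have h := (LinearEquiv.ofBijective Φ ⟨hinj, hsurj⟩).finrank_eq
  rw [Module.finrank_pi, Module.finrank_pi, Fintype.card_fin] at h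
  rw [Nat.card_eq_fintype_card, ← h]

end CfsgLib.SteinbergChar
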