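import Cfsg.Agent.SteinbergChar.Count

/-!
Longest elements of standard subgroups of a finite Weyl group, and the double cosets whose minimal element
carries a set of generators into another.
-/

set_option autoImplicit false

namespace CfsgLib.SteinbergChar

open CfsgLib.BNPair

variable {G : Type*} [Group G] (P : Cfsg.BNPair G) [Finite G]

theorem len_mul_gen_ne (w : Weyl P) (s : P.S) : len P (w * gen P s) ≠ len P w := by
  have h := len_gen_mul_ne P s w⁻¹
  rwa [len_inv, show gen P s * w⁻¹ = (w * gen P s)⁻¹ by rw [mul_inv_rev, gen_inv], len_inv] at h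

section

variable {J : Set P.S} {w₁ : Weyl P}
  (hw₁ : ∀ w, (InWord P J w ∧ ∀ s ∈ J, len P (w * gen P s) < len P w) ↔ w = w₁)

include hw₁ in
/-- Lengths in `x · (x⁻¹ w₁) = w₁` add up. -/
theorem longest_spec {x : Weyl P} (hx : InWord P J x) :
    InWord P J (x⁻¹ * w₁) ∧ len P w₁ = len P x + len P (x⁻¹ * w₁) := by
  classical
  have : Fintype (Weyl P) := Fintype.ofFinite _
  set X := Finset.univ.filter fun y => InWord P J y ∧ len P (x * y) = len P x + len P y
  obtain ⟨y, hy, hmax⟩ := Finset.exists_max_image X (len P)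
    ⟨1, Finset.mem_filter.2 ⟨Finset.mem_univ _, InWord.one J, by rw [mul_one, len_one, add_zero]⟩⟩
  obtain ⟨hyJ, hyl⟩ := (Finset.mem_filter.1 hy).2
  have hdesc : ∀ s ∈ J, len P (x * y * gen P s) < len P (x * y) := by
    intro s hs
    by_contra hle
    have h1 := len_mul_gen_le P (x * y) s
    have h2 := len_mul_gen_ne P (x * y) s
    have h3 := len_mul_le P x (y * gen P s)
    rw [← mul_assoc] at h3
    have h4 := len_mul_gen_le P y s
    have := hmax (y * gen P s) (Finset.mem_filter.2 ⟨Finset.mem_univ _, hyJ.mul (InWord.gen hs), by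
      rw [← mul_assoc]; omega⟩)
    omega
  have e := (hw₁ _).1 ⟨hx.mul hyJ, hdesc⟩
  rw [← e, inv_mul_cancel_left]
  exact ⟨hyJ, hyl⟩

include hw₁ in
theorem longest_inWord : InWord P J w₁ := ((hw₁ w₁).2 rfl).1

include hw₁ in
theorem longest_inv : w₁⁻¹ = w₁ := by
  obtain ⟨-, h⟩ := longest_spec P hw₁ (longest_inWord P hw₁).inv
  rw [inv_inv, len_inv] at h
  exact (eq_inv_of_mul_eq_one_left (eq_one_of_len_eq_zero P (w := w₁ * w₁) (by omega))).symm

include hw₁ in
theorem len_longest_mul {x : Weyl P} (hx : InWord P J x) : len P (w₁ * x) + len P x = len P w₁ := by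
  obtain ⟨-, h⟩ := longest_spec P hw₁ hx
  rw [← len_inv P (x⁻¹ * w₁), mul_inv_rev, inv_inv, longest_inv P hw₁] at h
  omega

include hw₁ in
theorem len_mul_longest {x : Weyl P} (hx : InWord P J x) : len P (x * w₁) + len P x = len P w₁ := by
  have h := len_longest_mul P hw₁ hx.inv
  rw [← len_inv P (w₁ * x⁻¹), mul_inv_rev, inv_inv, longest_inv P hw₁, len_inv] at h
  exact h

include hw₁ in
theorem len_longest_conj {x : Weyl P} (hx : InWord P J x) : len P (w₁ * x * w₁) = len P x := by
  have h1 := len_mul_longest P hw₁ hx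
  have h2 := len_longest_mul P hw₁ (hx.mul (longest_inWord P hw₁))
  rw [← mul_assoc] at h2
  omega

end

theorem eq_gen_of_len_one {J : Set P.S} {b : Weyl P} (hb : InWord P J b) (h : len P b = 1) :
    ∃ t ∈ J, gen P t = b := by
  obtain ⟨L, hL, hLb, hl⟩ := hb.exists_reduced
  rw [h, List.length_eq_one_iff] at hl
  obtain ⟨t, rfl⟩ := hl
  exact ⟨t, hL t (by simp), by simpa using hLb⟩

/-- Lengths add up for a minimal right coset representative. -/
theorem len_mul_minL {J : Finset P.S} {x w : Weyl P} (hx : InWord P (J : Set P.S) x)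
    (hw : MinL P (J : Set P.S) w) : len P (x * w) = len P x + len P w := by
  have hR : MinR P (J : Set P.S) w⁻¹ := fun s hs => by
    rw [len_inv, show w⁻¹ * gen P s = (gen P s * w)⁻¹ by rw [mul_inv_rev, gen_inv], len_inv]
    exact hw s hs
  have h := len_minR_mul P hR hx.inv
  rw [← mul_inv_rev, len_inv, len_inv, len_inv] at h
  omega

/-- The minimal element `w` conjugates every generator in `J` into the subgroup of `K`. -/
def GoodRep (J K : Finset P.S) (w : Weyl P) : Prop :=
  MinL P (J : Set P.S) w ∧ MinR P (K : Set P.S) w ∧ ∀ s ∈ J, InWord P (K : Set P.S) (w⁻¹ * gen P s * w)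

/-- Cells meet a double coset of parabolics as the words do. -/
theorem inWord_filter_of_mul_eq {J K : Finset P.S} {w : Weyl P}
    [DecidablePred fun s => InWord P (K : Set P.S) (w⁻¹ * gen P s * w)]
    (hL : MinL P (J : Set P.S) w) {a b : Weyl P}
    (ha : InWord P (J : Set P.S) a) (hb : InWord P (K : Set P.S) b) (hR : MinR P (K : Set P.S) w)
    (e : a * w = w * b) :
    InWord P ((J.filter fun s => InWord P (K : Set P.S) (w⁻¹ * gen P s * w) : Finset P.S) : Set P.S) a := by
  obtain ⟨L, hLJ, rfl, hl⟩ := ha.exists_reduced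
  induction L generalizing b with
  | nil => exact InWord.one _
  | cons s L ih =>
    have hsJ := hLJ s (List.mem_cons_self ..)
    obtain ⟨X, hX, hXl⟩ := CfsgLib.BNPair.exists_reduced P w
    obtain ⟨Y, hYK, hY, hYl⟩ := hb.exists_reduced
    have hLw : InWord P (J : Set P.S) (wordProd P L) := ⟨L, fun t ht => hLJ t (List.mem_cons_of_mem _ ht), rfl⟩
    have hlt : len P (gen P s * wordProd P (X ++ Y)) < len P (wordProd P (X ++ Y)) := by
      rw [wordProd_append, hX, hY, ← e, wordProd_cons, mul_assoc, gen_mul_gen_mul, ← mul_assoc,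
        ← wordProd_cons, len_mul_minL P ⟨_, hLJ, rfl⟩ hL, len_mul_minL P hLw hL, ← hl, List.length_cons]
      have := len_le P (L := L) rfl
      omega
    obtain ⟨A, B, t, hAB, he⟩ := exchange P s (X ++ Y) hlt
    rw [wordProd_append, hX, hY] at he
    rcases List.append_eq_append_iff.1 hAB with ⟨C, hA, hY'⟩ | ⟨C, hX', hB⟩
    · rw [hA, List.append_assoc, wordProd_append, hX] at he
      have hb' : InWord P (K : Set P.S) (wordProd P (C ++ B)) :=
        ⟨_, fun u hu => hYK u (by rw [hY']; simp only [List.mem_append, List.mem_cons] at hu ⊢; tauto), rfl⟩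
      have hsw : InWord P (K : Set P.S) (w⁻¹ * gen P s * w) := by
        rw [show w⁻¹ * gen P s * w = w⁻¹ * (gen P s * (w * b)) * b⁻¹ by group, he, inv_mul_cancel_left]
        exact hb'.mul hb.inv
      rw [wordProd_cons]
      refine (InWord.gen (Finset.mem_coe.2 (Finset.mem_filter.2 ⟨hsJ, hsw⟩))).mul (ih hb' (fun t ht => hLJ t (List.mem_cons_of_mem _ ht)) hLw ?_ ?_)
      · rw [← he, ← e, wordProd_cons, mul_assoc, gen_mul_gen_mul]
      · have := len_gen_mul_le P s (wordProd P L)
        rw [← wordProd_cons, ← hl, List.length_cons] at this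
        have := len_le P (L := L) rfl
        omega
    · cases C with
      | nil =>
        simp only [List.nil_append] at hB
        simp only [List.append_nil] at hX'
        rw [← hX', wordProd_append, hX] at he
        have hb' : InWord P (K : Set P.S) (wordProd P B) :=
          ⟨_, fun u hu => hYK u (by rw [← hB]; exact List.mem_cons_of_mem _ hu), rfl⟩
        have hsw : InWord P (K : Set P.S) (w⁻¹ * gen P s * w) := by
          rw [show w⁻¹ * gen P s * w = w⁻¹ * (gen P s * (w * b)) * b⁻¹ by group, he, inv_mul_cancel_left]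
          exact hb'.mul hb.inv
        rw [wordProd_cons]
        refine (InWord.gen (Finset.mem_coe.2 (Finset.mem_filter.2 ⟨hsJ, hsw⟩))).mul (ih hb' (fun t ht => hLJ t (List.mem_cons_of_mem _ ht)) hLw ?_ ?_)
        · rw [← he, ← e, wordProd_cons, mul_assoc, gen_mul_gen_mul]
        · have := len_gen_mul_le P s (wordProd P L)
          rw [← wordProd_cons, ← hl, List.length_cons] at this
          have := len_le P (L := L) rfl
          omega
      | cons t' C =>
        exfalso
        obtain ⟨rfl, rfl⟩ : t = t' ∧ B = C ++ Y := by simpa using hB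
        rw [← List.append_assoc, wordProd_append, hY, ← mul_assoc] at he
        have he' := mul_right_cancel he
        have h1 := len_le P (L := A ++ C) he'.symm
        have h2 := hL s hsJ
        rw [hX'] at hXl
        simp only [List.length_append, List.length_cons] at hXl h1
        omega

variable [Fintype P.S] {w₀ wJ : Weyl P}

open scoped Classical in
/-- The alternating number of good double cosets is a sign. -/
theorem alt_sum_good [Fintype (Weyl P)] (J : Finset P.S)
    (h₀ : ∀ w, (InWord P ((Finset.univ : Finset P.S) : Set P.S) w ∧ ∀ s ∈ (Finset.univ : Finset P.S), len P (w * gen P s) < len P w) ↔ w = w₀)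
    (hJ : ∀ w, (InWord P (J : Set P.S) w ∧ ∀ s ∈ J, len P (w * gen P s) < len P w) ↔ w = wJ) :
    ∑ K ∈ (Finset.univ : Finset P.S).powerset,
      (-1 : ℂ) ^ K.card * ((Finset.univ.filter (GoodRep P J K)).card : ℂ) = (-1) ^ J.card := by
  have hall : ∀ w : Weyl P, InWord P ((Finset.univ : Finset P.S) : Set P.S) w := fun w => by
    obtain ⟨L, hL⟩ := exists_word P w
    exact ⟨L, fun s _ => Finset.mem_coe.2 (Finset.mem_univ s), hL⟩
  have hwJ : InWord P (J : Set P.S) wJ := longest_inWord P hJ
  set ws := wJ * w₀ with hws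
  have hLs : len P ws + len P wJ = len P w₀ := len_mul_longest P h₀ (hall wJ)
  have hminL : MinL P (J : Set P.S) ws := fun s hs => by
    have h1 := len_mul_longest P h₀ (hall (gen P s * wJ))
    have h2 : len P (gen P s * wJ) < len P wJ := by
      have := ((hJ wJ).2 rfl).2 s hs
      rwa [← len_inv P (gen P s * wJ), mul_inv_rev, gen_inv, longest_inv P hJ]
    rw [hws, ← mul_assoc]
    rw [hws] at hLs
    omega
  have hconj : ∀ s ∈ J, ∃ t, gen P t = ws⁻¹ * gen P s * ws := by
    intro s hs
    obtain ⟨t, -, ht⟩ := eq_gen_of_len_one P (hall (ws⁻¹ * gen P s * ws)) (by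
      rw [hws, mul_inv_rev, longest_inv P h₀, longest_inv P hJ,
        show w₀ * wJ * gen P s * (wJ * w₀) = w₀ * (wJ * gen P s * wJ) * w₀ by group,
        len_longest_conj P h₀ (hall _), len_longest_conj P hJ (InWord.gen (Finset.mem_coe.2 hs)), len_gen])
    exact ⟨t, ht⟩
  have hval : ∀ w : Weyl P, (∑ K ∈ (Finset.univ : Finset P.S).powerset,
      if GoodRep P J K w then (-1 : ℂ) ^ K.card else 0) = if w = ws then (-1) ^ J.card else 0 := by
    intro w
    by_cases hw : MinL P (J : Set P.S) w ∧ ∀ s ∈ J, ∃ t, gen P t = w⁻¹ * gen P s * w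
    · obtain ⟨hwL, hwt⟩ := hw
      choose! τ hτ using hwt
      set T := J.image τ with hT
      set A := Finset.univ.filter fun t => len P w ≤ len P (w * gen P t) with hA
      have hTA : T ⊆ A := by
        intro t ht
        obtain ⟨s, hs, rfl⟩ := Finset.mem_image.1 ht
        refine Finset.mem_filter.2 ⟨Finset.mem_univ _, ?_⟩
        rw [hτ s hs, mul_assoc w⁻¹, mul_inv_cancel_left]
        exact hwL s hs
      have hgood : ∀ K : Finset P.S, GoodRep P J K w ↔ T ⊆ K ∧ K ⊆ A := by
        intro K
        constructor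
        · rintro ⟨-, hR, hK⟩
          refine ⟨fun t ht => ?_, fun t ht => Finset.mem_filter.2 ⟨Finset.mem_univ _, hR t ht⟩⟩
          obtain ⟨s, hs, rfl⟩ := Finset.mem_image.1 ht
          have h := hK s hs
          rw [← hτ s hs] at h
          obtain ⟨u, hu, hu'⟩ := eq_gen_of_len_one P h (len_gen P _)
          exact gen_injective P hu' ▸ hu
        · rintro ⟨h1, h2⟩
          refine ⟨hwL, fun t ht => (Finset.mem_filter.1 (h2 ht)).2, fun s hs => ?_⟩
          rw [← hτ s hs]
          exact InWord.gen (Finset.mem_coe.2 (h1 (Finset.mem_image_of_mem _ hs)))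
      have hcard : T.card = J.card := Finset.card_image_of_injOn fun a ha b hb h => by
        have h1 := hτ a ha
        rw [h, hτ b hb] at h1
        exact gen_injective P (mul_left_cancel (mul_right_cancel h1)).symm
      simp only [hgood]
      rw [← Finset.sum_filter]
      have h1 : ∑ K ∈ (Finset.univ : Finset P.S).powerset.filter (fun K => T ⊆ K ∧ K ⊆ A), (-1 : ℂ) ^ K.card =
          ∑ L ∈ (A \ T).powerset, (-1 : ℂ) ^ T.card * (-1) ^ L.card := by
        refine Finset.sum_bij' (fun K _ => K \ T) (fun L _ => T ∪ L) ?_ ?_ ?_ ?_ ?_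
        · intro K hK
          rw [Finset.mem_powerset]
          exact Finset.sdiff_subset_sdiff (Finset.mem_filter.1 hK).2.2 (subset_refl _)
        · intro L hL
          rw [Finset.mem_powerset] at hL
          exact Finset.mem_filter.2 ⟨Finset.mem_powerset.2 (Finset.subset_univ _), Finset.subset_union_left,
            Finset.union_subset hTA (hL.trans Finset.sdiff_subset)⟩
        · intro K hK
          exact Finset.union_sdiff_of_subset (Finset.mem_filter.1 hK).2.1
        · intro L hL
          rw [Finset.mem_powerset] at hL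
          exact Finset.union_sdiff_cancel_left (Finset.disjoint_left.2 fun x hx hx' => (Finset.mem_sdiff.1 (hL hx')).2 hx)
        · intro K hK
          rw [← pow_add, add_comm, Finset.card_sdiff_add_card_eq_card (Finset.mem_filter.1 hK).2.1]
      rw [h1, ← Finset.mul_sum]
      have h2 := congrArg (fun z : ℤ => (z : ℂ)) (Finset.sum_powerset_neg_one_pow_card (x := A \ T))
      push_cast at h2
      rw [h2, hcard]
      have hiff : A \ T = ∅ ↔ w = ws := by
        rw [Finset.sdiff_eq_empty_iff_subset]
        constructor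
        · intro hAT
          have hfull : wJ * w = w₀ := (h₀ _).1 ⟨hall _, fun t _ => by
            have hadd := len_mul_minL P hwJ hwL
            by_cases ht : len P w ≤ len P (w * gen P t)
            · obtain ⟨s, hs, rfl⟩ := Finset.mem_image.1 (hAT (Finset.mem_filter.2 ⟨Finset.mem_univ _, ht⟩))
              rw [hτ s hs, show wJ * w * (w⁻¹ * gen P s * w) = wJ * gen P s * w by group]
              have := len_mul_le P (wJ * gen P s) w
              have := ((hJ wJ).2 rfl).2 s hs
              omega
            · rw [mul_assoc]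
              have := len_mul_le P wJ (w * gen P t)
              omega⟩
          rw [hws, ← hfull, ← mul_assoc, (inv_eq_iff_mul_eq_one.1 (longest_inv P hJ) : wJ * wJ = 1), one_mul]
        · rintro rfl t ht
          have h3 := (Finset.mem_filter.1 ht).2
          obtain ⟨u, -, hu⟩ := eq_gen_of_len_one P (hall (w₀ * gen P t * w₀))
            (by rw [len_longest_conj P h₀ (hall _), len_gen])
          have e : ws * gen P t = wJ * gen P u * w₀ := by
            rw [hu, hws, show wJ * (w₀ * gen P t * w₀) * w₀ = wJ * w₀ * gen P t * (w₀ * w₀) by group,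
              inv_eq_iff_mul_eq_one.1 (longest_inv P h₀), mul_one]
          have h4 := len_mul_longest P h₀ (hall (wJ * gen P u))
          rw [e] at h3
          have h5 : len P (wJ * gen P u) < len P wJ := lt_of_le_of_ne (by omega) (len_mul_gen_ne P _ _)
          have huJ : u ∈ J := by
            obtain ⟨L, hLJ, hL, -⟩ := hwJ.exists_reduced
            rw [← len_inv P (wJ * gen P u), mul_inv_rev, gen_inv, longest_inv P hJ, ← hL] at h5
            obtain ⟨A', B', t', hAB, he⟩ := exchange P u L h5
            have hw' : InWord P (J : Set P.S) (gen P u) := by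
              rw [show gen P u = gen P u * wordProd P L * (wordProd P L)⁻¹ by group, he]
              exact InWord.mul ⟨_, fun v hv => hLJ v (by rw [hAB]; simp only [List.mem_append, List.mem_cons] at hv ⊢; tauto), rfl⟩
                (InWord.inv ⟨L, hLJ, rfl⟩)
            obtain ⟨v, hv, hv'⟩ := eq_gen_of_len_one P hw' (len_gen P u)
            exact gen_injective P hv' ▸ hv
          obtain ⟨s, hsJ, hs⟩ := eq_gen_of_len_one P ((hwJ.mul (InWord.gen (Finset.mem_coe.2 huJ))).mul hwJ)
            (by rw [len_longest_conj P hJ (InWord.gen (Finset.mem_coe.2 huJ)), len_gen])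
          refine Finset.mem_image.2 ⟨s, hsJ, gen_injective P ?_⟩
          rw [hτ s hsJ, hs, hu, hws, mul_inv_rev, longest_inv P h₀, longest_inv P hJ]
          have hJJ : wJ * wJ = 1 := inv_eq_iff_mul_eq_one.1 (longest_inv P hJ)
          have h00 : w₀ * w₀ = 1 := inv_eq_iff_mul_eq_one.1 (longest_inv P h₀)
          calc w₀ * wJ * (wJ * (w₀ * gen P t * w₀) * wJ) * (wJ * w₀)
              = w₀ * ((wJ * wJ) * (w₀ * gen P t * w₀) * (wJ * wJ)) * w₀ := by group
            _ = (w₀ * w₀) * gen P t * (w₀ * w₀) := by rw [hJJ, one_mul, mul_one]; group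
            _ = gen P t := by rw [h00, one_mul, mul_one]
      by_cases h : A \ T = ∅
      · rw [if_pos h, if_pos (hiff.1 h), mul_one]
      · rw [if_neg h, if_neg (mt hiff.2 h), mul_zero]
    · rw [if_neg (fun h => hw (by rw [h]; exact ⟨hminL, hconj⟩))]
      refine Finset.sum_eq_zero fun K _ => if_neg fun ⟨h1, h2, h3⟩ => hw ⟨h1, fun s hs => ?_⟩
      have hb := h3 s hs
      have hl := len_minR_mul P h2 hb
      rw [mul_assoc w⁻¹, mul_inv_cancel_left] at hl
      have h5 := h1 s hs
      have h6 := len_gen_mul_le P s w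
      have h7 := len_gen_mul_ne P s w
      rw [← mul_assoc] at hl
      obtain ⟨t, -, ht⟩ := eq_gen_of_len_one P hb (by omega)
      exact ⟨t, ht⟩
  rw [Finset.sum_congr rfl fun K _ => by rw [← Finset.sum_boole, Finset.mul_sum], Finset.sum_comm,
    Finset.sum_congr rfl fun w _ => by
      rw [Finset.sum_congr rfl fun K _ => by rw [mul_ite, mul_one, mul_zero], hval w],
    Finset.sum_ite_eq' Finset.univ ws, if_pos (Finset.mem_univ _)]

end CfsgLib.SteinbergChar
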