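import Cfsg.Agent.SteinbergChar.Modular
import Cfsg.Agent.SteinbergChar.Longest

/-!
In the group algebra of a split (B, N)-pair every admissible system of eigenvalues occurs.
-/

set_option autoImplicit false

open scoped MonoidAlgebra Classical

namespace CfsgLib.SteinbergChar

open CfsgLib.BNPair CfsgLib.SlBlocks

variable {G : Type*} [Group G] {P : Cfsg.BNPair G} {F : Type*} [Field F]

theorem exists_toW_prod (P : Cfsg.BNPair G) (L : List P.S) :
    ∃ hn : (L.map Subtype.val).prod ∈ P.N, toW P _ hn = wordProd P L := by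
  induction L with
  | nil => exact ⟨one_mem _, rfl⟩
  | cons s L ih =>
    obtain ⟨hn, e⟩ := ih
    refine ⟨mul_mem (P.subset s.2) hn, ?_⟩
    rw [wordProd_cons, ← e]
    exact toW_mul P (P.subset s.2) hn

theorem coprime_card_sub_one [Fintype F] (p : ℕ) [CharP F p] (j : ℕ) :
    Nat.Coprime (Fintype.card F - 1) (p ^ j) := by
  refine Nat.Coprime.pow_right j ?_
  obtain ⟨e, hp, hq⟩ := FiniteField.card F p
  rw [Nat.coprime_comm, hp.coprime_iff_not_dvd]
  intro hd
  have h2 : p ∣ Fintype.card F := hq ▸ dvd_pow_self p e.pos.ne'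
  have h3 : Fintype.card F = Fintype.card F - 1 + 1 := by
    have := Fintype.card_pos (α := F); omega
  rw [h3, ← Nat.dvd_add_iff_right hd] at h2
  exact hp.one_lt.ne' (Nat.dvd_one.1 h2)

namespace SplitData

variable (d : SplitData P F)

/-- The torus elements of a set of generators. -/
def torusOf (A : Set P.S) : Subgroup G := Subgroup.closure {g | ∃ t ∈ A, ∃ u : Fˣ, g = d.hh t u}

/-- The longest elements, and the torus part of relations among the representatives. -/
structure WeylHyp : Prop where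
  long : ∀ J : Finset P.S, ∃ w₁, ∀ w, (InWord P (J : Set P.S) w ∧ ∀ s ∈ (J : Set P.S), len P (w * gen P s) < len P w) ↔ w = w₁
  diff : ∀ s : P.S, ∀ h ∈ P.B ⊓ P.N, ∃ u, s.1⁻¹ * h * s.1 = h * d.hh s u
  conjn : ∀ (s t : P.S) (m : G) (hm : m ∈ P.N), toW P m hm * gen P t = gen P s * toW P m hm →
    len P (toW P m hm) < len P (toW P m hm * gen P t) → ∃ u', m * t.1 * m⁻¹ = d.hh s u' * s.1
  conj : ∀ (s t : P.S) (m : G) (hm : m ∈ P.N), toW P m hm * gen P t = gen P s * toW P m hm →
    len P (toW P m hm) < len P (toW P m hm * gen P t) → ∀ u, ∃ u', m * d.hh t u * m⁻¹ = d.hh s u'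

theorem torus_conj {m : G} (hm : m ∈ P.N) {h : G} (hh : h ∈ P.B ⊓ P.N) : m * h * m⁻¹ ∈ P.B ⊓ P.N :=
  Subgroup.mem_inf.2 ⟨P.conj_mem m hm h hh, mul_mem (mul_mem hm (Subgroup.mem_inf.1 hh).2) (inv_mem hm)⟩

theorem torus_conj' {m : G} (hm : m ∈ P.N) {h : G} (hh : h ∈ P.B ⊓ P.N) : m⁻¹ * h * m ∈ P.B ⊓ P.N := by
  simpa using torus_conj (inv_mem hm) hh

theorem torusOf_le (A : Set P.S) : d.torusOf A ≤ P.B ⊓ P.N := by
  refine (Subgroup.closure_le _).2 ?_
  rintro _ ⟨t, -, u, rfl⟩
  exact d.hh_mem t u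


variable {d}

theorem WeylHyp.torusOf_conj [Finite G] (H : d.WeylHyp) (A : Set P.S) : ∀ L : List P.S, (∀ t ∈ L, t ∈ A) →
    ∀ x ∈ d.torusOf A, (L.map Subtype.val).prod⁻¹ * x * (L.map Subtype.val).prod ∈ d.torusOf A := by
  intro L
  induction L with
  | nil => intro _ x hx; simpa using hx
  | cons s L ih =>
    intro hL x hx
    obtain ⟨u, hu⟩ := H.diff s x (d.torusOf_le A hx)
    rw [List.map_cons, List.prod_cons,
      show (s.1 * (L.map Subtype.val).prod)⁻¹ * x * (s.1 * (L.map Subtype.val).prod) =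
        (L.map Subtype.val).prod⁻¹ * (s.1⁻¹ * x * s.1) * (L.map Subtype.val).prod by group, hu]
    exact ih (fun t ht => hL t (List.mem_cons_of_mem _ ht)) _
      (mul_mem hx (Subgroup.subset_closure ⟨s, hL s (List.mem_cons_self ..), u, rfl⟩))

/-- A trivial word in the representatives lies in the torus of its letters. -/
theorem WeylHyp.prod_mem [Finite G] (H : d.WeylHyp) (A : Set P.S) : ∀ (j : ℕ) (L : List P.S), L.length ≤ j →
    (∀ t ∈ L, t ∈ A) → wordProd P L = 1 → (L.map Subtype.val).prod ∈ d.torusOf A := by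
  intro j
  induction j with
  | zero =>
    intro L hl _ _
    rw [List.eq_nil_of_length_eq_zero (Nat.le_zero.1 hl), List.map_nil, List.prod_nil]
    exact one_mem _
  | succ j ih =>
    intro L hl hL hw
    by_cases h0 : L = []
    · rw [h0, List.map_nil, List.prod_nil]; exact one_mem _
    have key : ∀ M : List P.S, M.length = len P (wordProd P M) ∨
        ∃ B r R, M = B ++ r :: R ∧ R.length = len P (wordProd P R) ∧ len P (gen P r * wordProd P R) < len P (wordProd P R) := by
      intro M
      induction M with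
      | nil => exact Or.inl (by rw [wordProd_nil, len_one, List.length_nil])
      | cons r R ihM =>
        rcases ihM with hR | ⟨B, r', R', e, h1, h2⟩
        · rcases len_gen_mul_cases P r (wordProd P R) with h | h
          · exact Or.inl (by rw [wordProd_cons, List.length_cons]; omega)
          · exact Or.inr ⟨[], r, R, rfl, hR, by omega⟩
        · exact Or.inr ⟨r :: B, r', R', by rw [e, List.cons_append], h1, h2⟩
    obtain ⟨B, r, R, rfl, hR, hlt⟩ := (key L).resolve_left fun h => h0 (List.eq_nil_of_length_eq_zero (by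
      rw [h, hw, len_one]))
    obtain ⟨A', C, t, rfl, e⟩ := exchange P r R hlt
    have hrA : r ∈ A := hL r (by simp)
    have hswap : wordProd P A' * gen P t = gen P r * wordProd P A' := by
      rw [wordProd_append, wordProd_append, wordProd_cons] at e
      have e2 : gen P r * (wordProd P A' * gen P t) = wordProd P A' := by
        apply mul_right_cancel (b := wordProd P C)
        simpa only [mul_assoc] using e
      conv_lhs => rw [← gen_mul_gen_mul P r (wordProd P A' * gen P t), e2]
    have hred : A'.length = len P (wordProd P A') ∧ A'.length + 1 = len P (wordProd P A' * gen P t) := by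
      have h1 : len P (wordProd P A') ≤ A'.length := len_le P rfl
      have h2 : len P (wordProd P C) ≤ C.length := len_le P rfl
      have h3 := len_mul_le P (wordProd P A' * gen P t) (wordProd P C)
      have h4 := len_mul_le P (wordProd P A') (gen P t)
      rw [len_gen] at h4
      rw [wordProd_append, wordProd_cons, ← mul_assoc, List.length_append, List.length_cons] at hR
      omega
    obtain ⟨hN, hNw⟩ := exists_toW_prod P A'
    obtain ⟨u, hu⟩ := H.conjn r t _ hN (by rw [hNw]; exact hswap) (by rw [hNw]; omega)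
    set a := (A'.map Subtype.val).prod
    set z : G := (d.hh r (u⁻¹ * (-1 : Fˣ))) with hz
    have hrt : r.1 * (a * t.1) = z * a := by
      rw [show a * t.1 = (a * t.1 * a⁻¹) * a by group, hu, hz, map_mul, ← d.sq]
      have e := d.hh_swap r u⁻¹
      rw [inv_inv] at e
      rw [← mul_assoc, ← mul_assoc r.1 (d.hh r u) r.1, ← e]
      group
    have hlen : (B ++ (A' ++ C)).length ≤ j := by
      simp only [List.length_append, List.length_cons] at hl ⊢
      omega
    have hw' : wordProd P (B ++ (A' ++ C)) = 1 := by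
      rw [← hw, wordProd_append, wordProd_append P B, wordProd_cons, e]
    have hA' : ∀ x ∈ B ++ (A' ++ C), x ∈ A := fun x hx => hL x (by
      simp only [List.mem_append, List.mem_cons] at hx ⊢
      tauto)
    have hm := ih _ hlen hA' hw'
    have hz' : z ∈ d.torusOf A := Subgroup.subset_closure ⟨r, hrA, _, rfl⟩
    have hc := H.torusOf_conj A (A' ++ C) (fun x hx => hA' x (List.mem_append_right _ hx)) z hz'
    have efin : ((B ++ r :: (A' ++ t :: C)).map Subtype.val).prod = ((B ++ (A' ++ C)).map Subtype.val).prod *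
        (((A' ++ C).map Subtype.val).prod⁻¹ * z * ((A' ++ C).map Subtype.val).prod) := by
      simp only [List.map_append, List.map_cons, List.prod_append, List.prod_cons]
      rw [show r.1 * (a * (t.1 * (C.map Subtype.val).prod)) = r.1 * (a * t.1) * (C.map Subtype.val).prod by
        simp only [mul_assoc], hrt]
      simp only [a]
      group
    rw [efin]
    exact mul_mem hm hc

theorem WeylHyp.ker [Finite G] (H : d.WeylHyp) (A : Set P.S) (L L' : List P.S) (hL : ∀ t ∈ L, t ∈ A)
    (hL' : ∀ t ∈ L', t ∈ A) (hw : wordProd P L = wordProd P L') :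
    (L.map Subtype.val).prod⁻¹ * (L'.map Subtype.val).prod ∈ d.torusOf A := by
  have hrev : ∀ M : List P.S, (∀ t ∈ M, t ∈ A) → wordProd P L = wordProd P M →
      (L.reverse.map Subtype.val).prod * (M.map Subtype.val).prod ∈ d.torusOf A := by
    intro M hM e
    rw [← List.prod_append, ← List.map_append]
    refine H.prod_mem A _ _ le_rfl (fun t ht => ?_) ?_
    · rcases List.mem_append.1 ht with h | h
      · exact hL t (List.mem_reverse.1 h)
      · exact hM t h
    · rw [wordProd_append, wordProd_reverse, e, inv_mul_cancel]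
  have h := mul_mem (inv_mem (hrev L hL rfl)) (hrev L' hL' hw)
  convert h using 1
  group

variable (d)

variable [Fintype F]

include d in
theorem torus_pow {h : G} (hh : h ∈ P.B ⊓ P.N) : h ^ (Fintype.card F - 1) = 1 := by
  have hle : P.B ⊓ P.N ≤ Subgroup.closure {g | ∃ s u, g = d.hh s u} := d.gen_torus
  have hT : Subgroup.closure {g | ∃ s u, g = d.hh s u} ≤ P.B ⊓ P.N := by
    refine (Subgroup.closure_le _).2 ?_
    rintro _ ⟨s, u, rfl⟩
    exact d.hh_mem s u
  have key : ∀ g ∈ Subgroup.closure {g | ∃ s u, g = d.hh s u}, g ^ (Fintype.card F - 1) = 1 := by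
    intro g hg
    induction hg using Subgroup.closure_induction with
    | mem x hx =>
      obtain ⟨s, u, rfl⟩ := hx
      rw [← map_pow, ← Fintype.card_units, pow_card_eq_one, map_one]
    | one => exact one_pow _
    | mul x y hx hy ihx ihy =>
      rw [Commute.mul_pow (d.torus_comm x (hT hx) y (hT hy)), ihx, ihy, one_mul]
    | inv x _ ih => rw [inv_pow, ih, inv_one]
  exact key h (hle hh)

variable {p : ℕ} [Fact p.Prime] [CharP F p]

omit [Fact p.Prime] in
include p in
theorem mem_U_of_p_elem {b : G} (hb : b ∈ P.B) {j : ℕ} (hj : b ^ p ^ j = 1) : b ∈ d.U := by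
  obtain ⟨u, hu, h, hh, e⟩ := d.decomp b hb
  have key : ∀ n : ℕ, ∃ v ∈ d.U, b ^ n = v * h ^ n := by
    intro n
    induction n with
    | zero => exact ⟨1, one_mem _, by simp⟩
    | succ n ih =>
      obtain ⟨v, hv, ev⟩ := ih
      refine ⟨v * (h ^ n * u * (h ^ n)⁻¹), mul_mem hv (d.conj_U _ (pow_mem (Subgroup.mem_inf.1 hh).1 n) u hu), ?_⟩
      rw [pow_succ, ev, e, pow_succ]
      group
  have hco := coprime_card_sub_one (F := F) p j
  obtain ⟨v, hv, ev⟩ := key (Fintype.card F - 1)
  rw [d.torus_pow hh, mul_one] at ev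
  have hz : b ^ ((Fintype.card F - 1 : ℕ) : ℤ) ∈ d.U := by rw [zpow_natCast, ev]; exact hv
  have hbez := Nat.gcd_eq_gcd_ab (Fintype.card F - 1) (p ^ j)
  rw [hco.gcd_eq_one] at hbez
  rw [← zpow_one b, show (1 : ℤ) = ((1 : ℕ) : ℤ) from rfl, hbez, zpow_add, zpow_mul, zpow_mul,
    zpow_natCast b (p ^ j), hj, one_zpow, mul_one]
  exact zpow_mem hz _

variable [Fintype G] {k : Type*} [Field k] [CharP k p]

/-- The `θ`-eigenvector in the group algebra of `B`. -/
noncomputable def eigVec (θ : G → k) : k[G] :=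
  ∑ x ∈ (Finset.univ.filter fun g => g ∈ d.U) ×ˢ (Finset.univ.filter fun g => g ∈ P.B ⊓ P.N),
    (θ x.2)⁻¹ • dl k (x.1 * x.2)

/-- The product of the operators along a word. -/
noncomputable def tauProd (L : List P.S) : k[G] := (L.map fun s => d.tau s).prod

omit [Fact p.Prime] [CharP F p] [CharP k p] in
theorem tauProd_mul_eq_tel {z : k[G]} (hz : IsFix d.U z) : ∀ L : List P.S, L.length = len P (wordProd P L) →
    d.tauProd L * z = tel k d.U (L.map Subtype.val).prod * z := by
  intro L
  induction L with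
  | nil => intro _; rw [tauProd, List.map_nil, List.prod_nil, one_mul, List.map_nil, List.prod_nil, d.tel_one hz]
  | cons s L ih =>
    intro hl
    obtain ⟨hn, e⟩ := exists_toW_prod P L
    have h1 : len P (wordProd P L) ≤ L.length := len_le P rfl
    have h2 := len_gen_mul_le P s (wordProd P L)
    rw [List.length_cons, wordProd_cons] at hl
    have hl' : L.length = len P (wordProd P L) := by omega
    rw [tauProd, List.map_cons, List.prod_cons, mul_assoc, ← tauProd, ih hl', d.tau_mul_tel hz hn (by rw [e]; omega),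
      List.map_cons, List.prod_cons]

variable {θ : G → k} (hθ1 : θ 1 = 1) (hθm : ∀ g ∈ P.B ⊓ P.N, ∀ h ∈ P.B ⊓ P.N, θ (g * h) = θ g * θ h)

omit [Fact p.Prime] [CharP F p] [CharP k p] in
theorem isFix_eigVec (θ : G → k) : IsFix d.U (d.eigVec θ) := by
  intro v hv
  rw [eigVec, Finset.mul_sum]
  refine Finset.sum_bij' (fun x _ => (v * x.1, x.2)) (fun x _ => (v⁻¹ * x.1, x.2)) ?_ ?_ ?_ ?_ ?_
  · intro x hx
    simp only [Finset.mem_product, Finset.mem_filter, Finset.mem_univ, true_and] at hx ⊢
    exact ⟨mul_mem hv hx.1, hx.2⟩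
  · intro x hx
    simp only [Finset.mem_product, Finset.mem_filter, Finset.mem_univ, true_and] at hx ⊢
    exact ⟨mul_mem (inv_mem hv) hx.1, hx.2⟩
  · intro x _; simp
  · intro x _; simp
  · intro x _
    rw [mul_smul_comm, dl_mul, mul_assoc]

include hθ1 hθm in
omit [Fact p.Prime] [CharP F p] [CharP k p] in
theorem eig_eigVec : Eig (P := P) θ (d.eigVec θ) := by
  intro h hh
  have hne : ∀ g ∈ P.B ⊓ P.N, θ g ≠ 0 := fun g hg h0 => by
    have := hθm g hg g⁻¹ (inv_mem hg)
    rw [mul_inv_cancel, hθ1, h0, zero_mul] at this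
    exact one_ne_zero this
  rw [eigVec, Finset.mul_sum, Finset.smul_sum]
  refine Finset.sum_bij' (fun x _ => (h * x.1 * h⁻¹, h * x.2)) (fun x _ => (h⁻¹ * x.1 * h, h⁻¹ * x.2)) ?_ ?_ ?_ ?_ ?_
  · intro x hx
    simp only [Finset.mem_product, Finset.mem_filter, Finset.mem_univ, true_and] at hx ⊢
    exact ⟨d.conj_U h (Subgroup.mem_inf.1 hh).1 _ hx.1, mul_mem hh hx.2⟩
  · intro x hx
    simp only [Finset.mem_product, Finset.mem_filter, Finset.mem_univ, true_and] at hx ⊢
    exact ⟨d.conj_U' hh hx.1, mul_mem (inv_mem hh) hx.2⟩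
  · intro x _; refine Prod.ext ?_ ?_ <;> simp [mul_assoc]
  · intro x _; refine Prod.ext ?_ ?_ <;> simp [mul_assoc]
  · intro x hx
    simp only [Finset.mem_product, Finset.mem_filter, Finset.mem_univ, true_and] at hx
    rw [mul_smul_comm, dl_mul, smul_smul, hθm h hh _ hx.2, mul_inv_rev, mul_left_comm,
      mul_inv_cancel₀ (hne h hh), mul_one]
    congr 2
    group

omit [Fact p.Prime] [CharP F p] [CharP k p] in
theorem coeff_eigVec_eq_zero (θ : G → k) {g : G} (hg : g ∉ P.B) : (d.eigVec θ).coeff g = 0 := by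
  rw [eigVec, MonoidAlgebra.coeff_sum, Finsupp.finsetSum_apply]
  refine Finset.sum_eq_zero fun x hx => ?_
  simp only [Finset.mem_product, Finset.mem_filter, Finset.mem_univ, true_and] at hx
  have hne : x.1 * x.2 ≠ g := fun e => hg (e ▸ mul_mem (d.le_B hx.1) (Subgroup.mem_inf.1 hx.2).1)
  simp [dl, hne, Finsupp.single_apply]

include hθ1 in
theorem coeff_eigVec (hU : IsPGroup p d.U) {g : G} (hg : g ∈ d.U) : (d.eigVec θ).coeff g = 1 := by
  rw [eigVec, MonoidAlgebra.coeff_sum, Finsupp.finsetSum_apply, Finset.sum_eq_single (g, (1 : G))]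
  · simp [dl, hθ1]
  · intro x hx hne
    simp only [Finset.mem_product, Finset.mem_filter, Finset.mem_univ, true_and] at hx
    have h1 : x.1 * x.2 ≠ g := fun e => by
      have h2 : x.2 ∈ d.U := by
        rw [show x.2 = x.1⁻¹ * g by rw [← e, inv_mul_cancel_left]]
        exact mul_mem (inv_mem hx.1) hg
      obtain ⟨j, hj⟩ := hU ⟨x.2, h2⟩
      have hj' : x.2 ^ p ^ j = 1 := congrArg Subtype.val hj
      have hq := d.torus_pow hx.2
      have hco := coprime_card_sub_one (F := F) p j
      have hone : x.2 ^ (Fintype.card F - 1).gcd (p ^ j) = 1 := pow_gcd_eq_one.2 ⟨hq, hj'⟩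
      rw [hco.gcd_eq_one, pow_one] at hone
      exact hne (Prod.ext (by rw [← e, hone, mul_one]) hone)
    simp [dl, h1, Finsupp.single_apply]
  · intro h
    exact absurd (Finset.mem_product.2 ⟨Finset.mem_filter.2 ⟨Finset.mem_univ _, hg⟩,
      Finset.mem_filter.2 ⟨Finset.mem_univ _, one_mem _⟩⟩) h

include hθ1 hθm in
/-- Every admissible system of eigenvalues occurs in the group algebra. -/
theorem exists_vec [Fintype P.S] (hU : IsPGroup p d.U) (H : d.WeylHyp) (J : Finset P.S)
    (hJ : ∀ s ∈ J, ∀ u, θ (d.hh s u) = 1) :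
    ∃ v : k[G], v ≠ 0 ∧ IsFix d.U v ∧ Eig (P := P) θ v ∧
      ∀ s, d.tau s * v = (if s ∈ J then (-1 : k) else 0) • v := by
  have : Fintype (Weyl P) := Fintype.ofFinite _
  have hinU : ∀ x : Weyl P, InWord P ((Finset.univ : Finset P.S) : Set P.S) x := fun x => by
    obtain ⟨L, hL⟩ := exists_word P x
    exact ⟨L, fun s _ => Finset.mem_coe.2 (Finset.mem_univ s), hL⟩
  obtain ⟨w₁, hw₁⟩ := H.long Finset.univ
  have hconj1 : ∀ s : P.S, ∃ t, gen P t = w₁ * gen P s * w₁ := fun s => by
    obtain ⟨t, -, ht⟩ := eq_gen_of_len_one P (hinU (w₁ * gen P s * w₁))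
      (by rw [len_longest_conj P hw₁ (hinU _), len_gen])
    exact ⟨t, ht⟩
  choose σ hσ using hconj1
  have hw₁2 : w₁ * w₁ = 1 := by
    conv_lhs => arg 1; rw [← longest_inv P hw₁]
    exact inv_mul_cancel w₁
  have hσσ : ∀ s, σ (σ s) = s := fun s => gen_injective P (by
    rw [hσ, hσ, show w₁ * (w₁ * gen P s * w₁) * w₁ = w₁ * w₁ * gen P s * (w₁ * w₁) by group, hw₁2, one_mul, mul_one])
  let A : Finset P.S := Finset.univ.filter fun s => (∀ u, θ (d.hh s u) = 1) ∧ s ∉ J
  set K : Finset P.S := A.image σ with hK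
  obtain ⟨wK, hwK⟩ := H.long K
  have hwK2 : wK * wK = 1 := by
    conv_lhs => arg 1; rw [← longest_inv P hwK]
    exact inv_mul_cancel wK
  set w := w₁ * wK with hw
  have hlw : ∀ x, InWord P (K : Set P.S) x → len P (w * x) = len P w + len P x := by
    intro x hx
    have h1 := len_longest_mul P hw₁ (hinU (wK * x))
    have h2 := len_longest_mul P hw₁ (hinU wK)
    have h3 := len_longest_mul P hwK hx
    rw [hw, mul_assoc]
    omega
  obtain ⟨Lw, hLw, hLwl⟩ := exists_reduced P w
  obtain ⟨hmN, hmw⟩ := exists_toW_prod P Lw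
  set m := (Lw.map Subtype.val).prod with hm
  rw [hLw] at hmw
  set θ₀ : G → k := fun h => θ (m * h * m⁻¹) with hθ₀
  have hθ₀1 : θ₀ 1 = 1 := by simp [hθ₀, hθ1]
  have hθ₀m : ∀ g ∈ P.B ⊓ P.N, ∀ h ∈ P.B ⊓ P.N, θ₀ (g * h) = θ₀ g * θ₀ h := fun g hg h hh => by
    simp only [hθ₀]
    rw [← hθm _ (torus_conj hmN hg) _ (torus_conj hmN hh)]
    congr 1; group
  -- the generators of `K`
  have hKA : ∀ t ∈ K, ∃ s ∈ A, w * gen P t = gen P s * w := by
    intro t ht
    obtain ⟨t', ht', e'⟩ := eq_gen_of_len_one P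
      ((longest_inWord P hwK).mul ((InWord.gen (Finset.mem_coe.2 ht)).mul (longest_inWord P hwK)))
      (by rw [← mul_assoc, len_longest_conj P hwK (InWord.gen (Finset.mem_coe.2 ht)), len_gen])
    obtain ⟨s, hs, rfl⟩ := Finset.mem_image.1 (Finset.mem_coe.1 ht')
    refine ⟨s, hs, ?_⟩
    rw [hw]
    calc w₁ * wK * gen P t = w₁ * (wK * (gen P t * wK)) * wK := by
          simp only [mul_assoc, hwK2, mul_one]
      _ = w₁ * (w₁ * gen P s * w₁) * wK := by rw [← e', hσ]
      _ = gen P s * (w₁ * wK) := by simp only [← mul_assoc, hw₁2, one_mul]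
  have hθK : ∀ g ∈ d.torusOf (K : Set P.S), θ₀ g = 1 := by
    intro g hg
    induction hg using Subgroup.closure_induction with
    | mem x hx =>
      obtain ⟨t, ht, u, rfl⟩ := hx
      obtain ⟨s, hs, e⟩ := hKA t (Finset.mem_coe.1 ht)
      obtain ⟨u', hu'⟩ := H.conj s t m hmN (by rw [hmw]; exact e) (by
        rw [hmw, hlw _ (InWord.gen ht), len_gen]; omega) u
      simp only [hθ₀, hu']
      exact (Finset.mem_filter.1 hs).2.1 u'
    | one => exact hθ₀1
    | mul x y hx hy ihx ihy => rw [hθ₀m x (d.torusOf_le _ hx) y (d.torusOf_le _ hy), ihx, ihy, one_mul]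
    | inv x hx ih =>
      have := hθ₀m x⁻¹ (inv_mem (d.torusOf_le _ hx)) x (d.torusOf_le _ hx)
      rw [inv_mul_cancel, hθ₀1, ih, mul_one] at this
      exact this.symm
  have hθinv : ∀ L : List P.S, (∀ t ∈ L, t ∈ (K : Set P.S)) → ∀ h ∈ P.B ⊓ P.N,
      θ₀ ((L.map Subtype.val).prod⁻¹ * h * (L.map Subtype.val).prod) = θ₀ h := by
    intro L
    induction L with
    | nil => intro _ h _; simp
    | cons t L ih =>
      intro hL h hh
      obtain ⟨u, hu⟩ := H.diff t h hh
      rw [List.map_cons, List.prod_cons,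
        show (t.1 * (L.map Subtype.val).prod)⁻¹ * h * (t.1 * (L.map Subtype.val).prod) =
          (L.map Subtype.val).prod⁻¹ * (t.1⁻¹ * h * t.1) * (L.map Subtype.val).prod by group,
        ih (fun s hs => hL s (List.mem_cons_of_mem _ hs)) _ (torus_conj' (P.subset t.2) hh), hu,
        hθ₀m h hh _ (d.hh_mem t u),
        hθK _ (Subgroup.subset_closure ⟨t, hL t (List.mem_cons_self ..), u, rfl⟩), mul_one]
  set b := d.eigVec θ₀ with hb
  have hbf : IsFix d.U b := d.isFix_eigVec θ₀
  have hbe : Eig (P := P) θ₀ b := d.eig_eigVec hθ₀1 hθ₀m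
  -- the sum over the parabolic subgroup of `K`
  choose! Lx hLxK hLx hLxl using fun x (hx : InWord P (K : Set P.S) x) => hx.exists_reduced
  set XK := Finset.univ.filter fun x : Weyl P => InWord P (K : Set P.S) x with hXK
  set a : k[G] := ∑ x ∈ XK, d.tauProd (Lx x) * b with ha
  have hPi : ∀ x, InWord P (K : Set P.S) x → d.tauProd (Lx x) * b = tel k d.U ((Lx x).map Subtype.val).prod * b :=
    fun x hx => d.tauProd_mul_eq_tel hbf _ (by rw [hLx x hx, hLxl x hx])
  have hPie : ∀ x, InWord P (K : Set P.S) x → Eig (P := P) θ₀ (d.tauProd (Lx x) * b) := by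
    intro x hx h hh
    obtain ⟨hxN, -⟩ := exists_toW_prod P (Lx x)
    rw [hPi x hx, d.eig_tel hbf hbe hxN h hh]
    dsimp only
    rw [hθinv _ (hLxK x hx) h hh]
  have hPif : ∀ x, InWord P (K : Set P.S) x → IsFix d.U (d.tauProd (Lx x) * b) := fun x hx => by
    rw [hPi x hx]; exact hbf.tel _
  have hasc : ∀ t ∈ K, ∀ x, InWord P (K : Set P.S) x → len P x < len P (gen P t * x) →
      d.tau t * (d.tauProd (Lx x) * b) = d.tauProd (Lx (gen P t * x)) * b := by
    intro t ht x hx hlt
    have hx' : InWord P (K : Set P.S) (gen P t * x) := (InWord.gen (Finset.mem_coe.2 ht)).mul hx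
    have hred : (t :: Lx x).length = len P (wordProd P (t :: Lx x)) := by
      rw [List.length_cons, wordProd_cons, hLx x hx, hLxl x hx]
      have := len_gen_mul_le P t x
      omega
    obtain ⟨hNa, hNw⟩ := exists_toW_prod P (Lx (gen P t * x))
    have hk := H.ker (K : Set P.S) (Lx (gen P t * x)) (t :: Lx x) (hLxK _ hx')
      (fun s hs => (List.mem_cons.1 hs).elim (fun e => e ▸ Finset.mem_coe.2 ht) (hLxK x hx s))
      (by rw [hLx _ hx', wordProd_cons, hLx x hx])
    rw [← mul_assoc, show d.tau t * d.tauProd (Lx x) = d.tauProd (k := k) (t :: Lx x) by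
        rw [tauProd, tauProd, List.map_cons, List.prod_cons],
      d.tauProd_mul_eq_tel hbf _ hred, hPi _ hx',
      show ((t :: Lx x).map Subtype.val).prod = ((Lx (gen P t * x)).map Subtype.val).prod *
        (((Lx (gen P t * x)).map Subtype.val).prod⁻¹ * ((t :: Lx x).map Subtype.val).prod) by group,
      d.tel_right (d.torusOf_le _ hk) _ hbf, hbe _ (d.torusOf_le _ hk), hθK _ hk, one_smul]
  have hdesc : ∀ t ∈ K, ∀ x, InWord P (K : Set P.S) x → len P (gen P t * x) < len P x →
      d.tau t * (d.tauProd (Lx x) * b) = -(d.tauProd (Lx x) * b) := by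
    intro t ht x hx hlt
    have hy : InWord P (K : Set P.S) (gen P t * x) := (InWord.gen (Finset.mem_coe.2 ht)).mul hx
    have e := hasc t ht _ hy (by rw [gen_mul_gen_mul]; exact hlt)
    rw [gen_mul_gen_mul] at e
    rw [← e]
    by_cases h0 : d.tauProd (Lx (gen P t * x)) * b = 0
    · rw [h0, mul_zero, mul_zero, neg_zero]
    · rw [d.tau_tau (p := p) h0 (hPif _ hy) (hPie _ hy) t]
      rcases d.coef_cases (p := p) h0 (hPie _ hy) t with ⟨h1, -⟩ | ⟨-, u, hu⟩
      · rw [h1, neg_one_smul]
      · exact absurd (hθK _ (Subgroup.subset_closure ⟨t, Finset.mem_coe.2 ht, u, rfl⟩)) hu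
  have hta : ∀ t ∈ K, d.tau t * a = 0 := by
    intro t ht
    rw [ha, Finset.mul_sum, ← Finset.sum_filter_add_sum_filter_not XK (fun x => len P x < len P (gen P t * x))]
    have h1 : ∑ x ∈ XK.filter (fun x => len P x < len P (gen P t * x)), d.tau t * (d.tauProd (Lx x) * b) =
        ∑ x ∈ XK.filter (fun x => ¬ len P x < len P (gen P t * x)), d.tauProd (Lx x) * b := by
      refine Finset.sum_bij' (fun x _ => gen P t * x) (fun x _ => gen P t * x) ?_ ?_
        (fun x _ => gen_mul_gen_mul P t x) (fun x _ => gen_mul_gen_mul P t x) ?_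
      · intro x hx
        simp only [hXK, Finset.mem_filter, Finset.mem_univ, true_and, gen_mul_gen_mul] at hx ⊢
        exact ⟨(InWord.gen (Finset.mem_coe.2 ht)).mul hx.1, by omega⟩
      · intro x hx
        simp only [hXK, Finset.mem_filter, Finset.mem_univ, true_and, gen_mul_gen_mul] at hx ⊢
        exact ⟨(InWord.gen (Finset.mem_coe.2 ht)).mul hx.1, by have := len_gen_mul_ne P t x; omega⟩
      · intro x hx
        simp only [hXK, Finset.mem_filter, Finset.mem_univ, true_and] at hx
        exact hasc t ht x hx.1 hx.2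
    rw [h1, ← Finset.sum_add_distrib]
    refine Finset.sum_eq_zero fun x hx => ?_
    simp only [hXK, Finset.mem_filter, Finset.mem_univ, true_and] at hx
    rw [hdesc t ht x hx.1 (by have := len_gen_mul_ne P t x; omega), add_neg_cancel]
  have haf : IsFix d.U a := fun u hu => by
    rw [ha, Finset.mul_sum]
    exact Finset.sum_congr rfl fun x hx => hPif x (Finset.mem_filter.1 hx).2 u hu
  have hae : Eig (P := P) θ₀ a := fun h hh => by
    rw [ha, Finset.mul_sum, Finset.smul_sum]
    exact Finset.sum_congr rfl fun x hx => hPie x (Finset.mem_filter.1 hx).2 h hh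
  have hLwl' : Lw.length = len P (wordProd P Lw) := by rw [hLw, hLwl]
  set v := tel k d.U m * a with hv
  have hvL : v = d.tauProd Lw * a := (d.tauProd_mul_eq_tel haf Lw hLwl').symm
  have hvf : IsFix d.U v := haf.tel _
  have hve : Eig (P := P) θ v := fun h hh => by
    rw [hv, d.eig_tel haf hae hmN h hh]
    simp only [hθ₀]
    congr 2
    group
  have hv0 : v ≠ 0 := by
    intro h0
    have hexp : v = ∑ x ∈ XK, tel k d.U ((Lw ++ Lx x).map Subtype.val).prod * b := by
      rw [hvL, ha, Finset.mul_sum]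
      refine Finset.sum_congr rfl fun x hx => ?_
      have hx' := (Finset.mem_filter.1 hx).2
      rw [← mul_assoc, show d.tauProd Lw * d.tauProd (Lx x) = d.tauProd (k := k) (Lw ++ Lx x) by
        rw [tauProd, tauProd, tauProd, List.map_append, List.prod_append], d.tauProd_mul_eq_tel hbf]
      rw [List.length_append, wordProd_append, hLw, hLx x hx', hlw x hx', hLwl, hLxl x hx']
    have hc := congrArg (fun z : k[G] => z.coeff m) hexp
    simp only [h0, MonoidAlgebra.coeff_zero, Finsupp.coe_zero, Pi.zero_apply, MonoidAlgebra.coeff_sum,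
      Finsupp.finsetSum_apply, tel_mul] at hc
    rw [Finset.sum_eq_single (1 : Weyl P)] at hc
    · have hnil : Lx 1 = [] := List.eq_nil_of_length_eq_zero (by rw [hLxl 1 (InWord.one _), len_one])
      rw [hnil, List.append_nil, ← hm, Finset.sum_eq_single ((m : G) : G ⧸ d.U)] at hc
      · obtain ⟨u, hu⟩ := QuotientGroup.mk_out_eq_mul d.U m
        rw [dl, MonoidAlgebra.coeff_single_mul_apply, one_mul, hu, hb,
          show (m * (u : G))⁻¹ * m = (u : G)⁻¹ by group, d.coeff_eigVec hθ₀1 hU (inv_mem u.2)] at hc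
        exact zero_ne_one hc
      · intro c hc' hne
        rw [dl, MonoidAlgebra.coeff_single_mul_apply, one_mul]
        refine d.coeff_eigVec_eq_zero θ₀ fun hB => hne ?_
        obtain ⟨u, hu, v', hv', e⟩ := orb_out hc'
        have hB' : m⁻¹ * u⁻¹ * m ∈ P.B := by
          have := mul_mem (d.le_B hv') hB
          rwa [e, show v' * ((u * m * v')⁻¹ * m) = m⁻¹ * u⁻¹ * m by group] at this
        obtain ⟨j, hj⟩ := hU ⟨u⁻¹, inv_mem hu⟩
        have hj' : u⁻¹ ^ p ^ j = 1 := congrArg Subtype.val hj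
        have hmem := d.mem_U_of_p_elem (p := p) hB' (j := j) (by
          rw [show m⁻¹ * u⁻¹ * m = m⁻¹ * u⁻¹ * (m⁻¹)⁻¹ by rw [inv_inv], conj_pow, hj', mul_one, mul_inv_cancel])
        rw [← QuotientGroup.out_eq' c, QuotientGroup.eq, e,
          show (u * m * v')⁻¹ * m = v'⁻¹ * (m⁻¹ * u⁻¹ * m) by group]
        exact mul_mem (inv_mem hv') hmem
      · exact fun h => absurd (self_mem_orb d.U m) h
    · intro x hx hne
      have hx' := (Finset.mem_filter.1 hx).2
      try rw [MonoidAlgebra.coeff_sum, Finsupp.finsetSum_apply]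
      refine Finset.sum_eq_zero fun c hc' => ?_
      rw [dl, MonoidAlgebra.coeff_single_mul_apply, one_mul]
      refine d.coeff_eigVec_eq_zero θ₀ fun hB => hne ?_
      obtain ⟨u, hu, v', hv', e⟩ := orb_out hc'
      obtain ⟨hxN, hxw⟩ := exists_toW_prod P (Lw ++ Lx x)
      have h1 : c.out ∈ cell P (toW P _ hxN) := by
        rw [e]; exact cell_mul_right P (d.le_B hv') (cell_mul_left P (d.le_B hu) (self_mem_cell P hxN))
      have h2 := cell_mul_right P hB h1
      rw [mul_inv_cancel_left] at h2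
      have h3 := eq_of_mem_cell P h2 (self_mem_cell P hmN)
      rw [hxw, wordProd_append, hLw, hLx x hx', hmw] at h3
      exact mul_eq_left.1 h3
    · exact fun h => absurd (Finset.mem_filter.2 ⟨Finset.mem_univ _, InWord.one _⟩) h
  refine ⟨v, hv0, hvf, hve, fun s => ?_⟩
  have hsw : ∀ t : P.S, t = σ s → gen P s * w = w₁ * (gen P t * wK) := by
    rintro t rfl
    rw [hσ, hw]
    simp only [← mul_assoc, hw₁2, one_mul]
  by_cases hsA : s ∈ A
  · have hsJ : s ∉ J := (Finset.mem_filter.1 hsA).2.2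
    rw [if_neg hsJ, zero_smul]
    obtain ⟨t, ht, e'⟩ := eq_gen_of_len_one P
      ((longest_inWord P hwK).mul ((InWord.gen (Finset.mem_coe.2 (Finset.mem_image_of_mem σ hsA))).mul (longest_inWord P hwK)))
      (by rw [← mul_assoc, len_longest_conj P hwK (InWord.gen (Finset.mem_coe.2 (Finset.mem_image_of_mem σ hsA))), len_gen])
    have hst : gen P s * w = w * gen P t := by
      rw [hsw _ rfl, e', hw]
      simp only [← mul_assoc]
      rw [mul_assoc w₁ wK wK, hwK2, mul_one]
    have hlen : len P (gen P s * w) = len P w + 1 := by rw [hst, hlw _ (InWord.gen ht), len_gen]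
    rw [hv, d.tau_mul_tel haf hmN (by rw [hmw]; omega)]
    set n' := ((Lw ++ [t]).map Subtype.val).prod with hn'
    obtain ⟨hn'N, hn'w⟩ := exists_toW_prod P (Lw ++ [t])
    have hT : n'⁻¹ * (s.1 * m) ∈ P.B ⊓ P.N := Subgroup.mem_inf.2
      ⟨(toW_eq_iff P hn'N (mul_mem (P.subset s.2) hmN)).1 (by
        rw [hn'w, toW_mul P (P.subset s.2) hmN, hmw, wordProd_append, hLw, wordProd_cons, wordProd_nil, mul_one]
        exact hst.symm), mul_mem (inv_mem hn'N) (mul_mem (P.subset s.2) hmN)⟩
    rw [show s.1 * m = n' * (n'⁻¹ * (s.1 * m)) by group, d.tel_right hT _ haf, hae _ hT, mul_smul_comm,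
      hn', ← d.tauProd_mul_eq_tel haf (Lw ++ [t]) (by
        rw [List.length_append, List.length_singleton, wordProd_append, hLw, wordProd_cons, wordProd_nil,
          mul_one, ← hst, hlen, hLwl]),
      show d.tauProd (k := k) (Lw ++ [t]) = d.tauProd Lw * d.tau t by
        rw [tauProd, tauProd, List.map_append, List.prod_append, List.map_singleton, List.prod_singleton],
      mul_assoc, hta t (Finset.mem_coe.1 ht), mul_zero, smul_zero]
  · set t := σ s with ht
    have htK : t ∉ K := fun h => by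
      obtain ⟨s', hs', e⟩ := Finset.mem_image.1 h
      rw [ht] at e
      have := congrArg σ e
      rw [hσσ, hσσ] at this
      exact hsA (this ▸ hs')
    have hmin : MinL P (K : Set P.S) (gen P t) := fun r hr => by
      rw [len_gen]
      rcases Nat.eq_zero_or_pos (len P (gen P r * gen P t)) with h0 | h0
      · have := eq_one_of_len_eq_zero P h0
        rw [mul_eq_one_iff_eq_inv, gen_inv] at this
        exact absurd (gen_injective P this ▸ Finset.mem_coe.1 hr) htK
      · omega
    have hlen : len P (gen P s * w) + 1 = len P w := by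
      have h1 := len_mul_minL P (longest_inWord P hwK) hmin
      have h2 : len P (gen P t * wK) = len P (wK * gen P t) := by
        rw [← len_inv P (wK * gen P t), mul_inv_rev, gen_inv, longest_inv P hwK]
      have h3 := len_longest_mul P hw₁ (hinU (gen P t * wK))
      have h4 := len_longest_mul P hw₁ (hinU wK)
      rw [len_gen] at h1
      rw [hsw t rfl, hw]
      omega
    set n' := s.1⁻¹ * m with hn'
    have hn'N : n' ∈ P.N := mul_mem (inv_mem (P.subset s.2)) hmN
    have hn'w : toW P n' hn'N = gen P s * w := by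
      rw [show toW P n' hn'N = toW P (s.1⁻¹ * m) (mul_mem (inv_mem (P.subset s.2)) hmN) from rfl,
        toW_mul P (inv_mem (P.subset s.2)) hmN, toW_inv P (P.subset s.2), hmw]
      exact congrArg (· * w) (gen_inv P s)
    have hvv : d.tau s * (tel k d.U n' * a) = v := by
      rw [hv, d.tau_mul_tel haf hn'N (by rw [hn'w, gen_mul_gen_mul]; omega), hn', mul_inv_cancel_left]
    have hv'0 : tel k d.U n' * a ≠ 0 := fun h => hv0 (by rw [← hvv, h, mul_zero])
    have hv'e := d.eig_tel haf hae hn'N
    have hθ' : ∀ u, θ₀ (n'⁻¹ * d.hh s u * n') = θ (d.hh s u⁻¹) := fun u => by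
      simp only [hθ₀, hn']
      congr 1
      have e := d.hh_swap s u⁻¹
      rw [inv_inv] at e
      calc m * ((s.1⁻¹ * m)⁻¹ * d.hh s u * (s.1⁻¹ * m)) * m⁻¹ = s.1 * d.hh s u * s.1⁻¹ := by group
        _ = d.hh s u⁻¹ := by rw [← e, mul_inv_cancel_right]
    have hτ : d.tau s * v = d.coef (fun h => θ₀ (n'⁻¹ * h * n')) s • v := by
      conv_lhs => rw [← hvv]
      rw [d.tau_tau (p := p) hv'0 (haf.tel _) hv'e s, hvv]
    rcases d.coef_cases (p := p) hv'0 hv'e s with ⟨h1, h2⟩ | ⟨h1, u, hu⟩
    · have hz : ∀ u, θ (d.hh s u) = 1 := fun u => by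
        have := h2 u⁻¹
        rwa [hθ', inv_inv] at this
      have hsJ : s ∈ J := by
        by_contra h
        exact hsA (Finset.mem_filter.2 ⟨Finset.mem_univ _, hz, h⟩)
      rw [hτ, h1, if_pos hsJ]
    · have hsJ : s ∉ J := fun h => hu (by simp only [hθ']; exact hJ s h _)
      rw [hτ, h1, if_neg hsJ]

end SplitData

end CfsgLib.SteinbergChar
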