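import Cfsg.Agent.SteinbergChar.WeightVectors
import Cfsg.Agent.SteinbergChar.WeightExists
import Cfsg.Agent.SteinbergChar.Factors
import Mathlib.GroupTheory.FiniteAbelian.Duality
import Mathlib.RingTheory.RootsOfUnity.AlgebraicallyClosed
import Mathlib.GroupTheory.NoncommPiCoprod

/-!
The simple modules of a split (B, N)-pair in characteristic `p` correspond to the admissible
systems of eigenvalues, so the `p`-regular classes number `q` to the power of the rank.
-/

set_option autoImplicit false

open scoped MonoidAlgebra Classical Matrix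
open MonoidAlgebra (single)

namespace CfsgLib.SteinbergChar

open CfsgLib.BNPair CfsgLib.SlBlocks CfsgLib.Blocks

variable {G : Type*} [Group G] [Fintype G] {k : Type*} [Field k]

/-- The matrix coefficients in a row as vectors of the group algebra. -/
noncomputable def embedRow {ι : Type*} [Fintype ι] [DecidableEq ι] (A : G →* Matrix ι ι k) (i₀ : ι) :
    (ι → k) →ₗ[k] k[G] where
  toFun m := ∑ g : G, (A g⁻¹ *ᵥ m) i₀ • dl k g
  map_add' m m' := by simp [Matrix.mulVec_add, add_smul, Finset.sum_add_distrib]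
  map_smul' r m := by simp [Matrix.mulVec_smul, Finset.smul_sum, mul_smul]

theorem embedRow_equivariant {ι : Type*} [Fintype ι] [DecidableEq ι] (A : G →* Matrix ι ι k) (i₀ : ι) (h : G)
    (m : ι → k) : dl k h * embedRow A i₀ m = embedRow A i₀ (A h *ᵥ m) := by
  change dl k h * ∑ g : G, (A g⁻¹ *ᵥ m) i₀ • dl k g = ∑ g : G, (A g⁻¹ *ᵥ (A h *ᵥ m)) i₀ • dl k g
  rw [Finset.mul_sum]
  refine Fintype.sum_equiv (Equiv.mulLeft h) _ _ fun g => ?_
  rw [Equiv.coe_mulLeft, mul_smul_comm, dl_mul, Matrix.mulVec_mulVec, ← map_mul, mul_inv_rev, inv_mul_cancel_right]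

theorem embedRow_injective {ι : Type*} [Fintype ι] [DecidableEq ι] {A : G →* Matrix ι ι k} (hA : Irr A) (i₀ : ι) :
    Function.Injective (embedRow A i₀) := by
  refine (injective_iff_map_eq_zero _).2 fun m hm => funext fun j => ?_
  have hz : ∀ g, (A g *ᵥ m) i₀ = 0 := fun g => by
    have h := congrArg (fun z : k[G] => z.coeff g⁻¹) hm
    simpa [embedRow, dl, MonoidAlgebra.coeff_sum, Finsupp.single_apply] using h
  obtain ⟨a, ha⟩ := hA (Matrix.single i₀ j 1)
  have h := congrArg (fun X : Matrix ι ι k => (X *ᵥ m) i₀) ha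
  simp only [Matrix.sum_mulVec, Finset.sum_apply, Matrix.smul_mulVec, Pi.smul_apply, hz, smul_zero,
    Finset.sum_const_zero, Matrix.single_mulVec, one_mul] at h
  simpa using h.symm

namespace SplitData

variable {P : Cfsg.BNPair G} {F : Type*} [Field F] (d : SplitData P F) [Fintype F]

variable (k) in
/-- The admissible systems of eigenvalues. -/
def Profile : Type _ :=
  {π : (↥(P.B ⊓ P.N) →* kˣ) × Finset P.S // ∀ s ∈ π.2, ∀ u, π.1 ⟨d.hh s u, d.hh_mem s u⟩ = 1}

/-- A character of the torus as a function. -/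
noncomputable def thetaFun (χ : ↥(P.B ⊓ P.N) →* kˣ) (g : G) : k :=
  if h : g ∈ P.B ⊓ P.N then (χ ⟨g, h⟩ : k) else 0

/-- The eigenvalues of the operators. -/
noncomputable def tauVal (J : Finset P.S) (s : P.S) : k := if s ∈ J then -1 else 0

theorem thetaFun_one (χ : ↥(P.B ⊓ P.N) →* kˣ) : thetaFun χ 1 = 1 := by
  rw [thetaFun, dif_pos (one_mem _), show (⟨1, one_mem _⟩ : ↥(P.B ⊓ P.N)) = 1 from rfl, map_one, Units.val_one]

theorem thetaFun_mul (χ : ↥(P.B ⊓ P.N) →* kˣ) {g h : G} (hg : g ∈ P.B ⊓ P.N) (hh : h ∈ P.B ⊓ P.N) :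
    thetaFun χ (g * h) = thetaFun χ g * thetaFun χ h := by
  rw [thetaFun, thetaFun, thetaFun, dif_pos hg, dif_pos hh, dif_pos (mul_mem hg hh), ← Units.val_mul, ← map_mul]
  rfl

variable {p : ℕ} [Fact p.Prime] [CharP F p] [CharP k p] [IsAlgClosed k]

omit [Fact p.Prime] in
include p in
/-- Every simple module has an eigenvector. -/
theorem exists_good {ι : Type*} [Fintype ι] [DecidableEq ι] [Nonempty ι] [Fact p.Prime] (hU : IsPGroup p d.U)
    {A : G →* Matrix ι ι k} (hA : Irr A) :
    ∃ π : d.Profile k, ∃ w, w ≠ 0 ∧ d.Good (vecRep A) (thetaFun π.1.1) (tauVal π.1.2) w := by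
  obtain ⟨i₀⟩ := ‹Nonempty ι›
  have hinj := embedRow_injective hA i₀
  obtain ⟨b, hb0, hb, -⟩ := exists_fixed_span hU (vecRep A) (a := Pi.single i₀ (1 : k))
    (fun h => by simpa using congrFun h i₀)
  have ha0 : embedRow A i₀ b ≠ 0 := fun h => hb0 (hinj (by rw [h, map_zero]))
  have haf : IsFix d.U (embedRow A i₀ b) := fun u hu => by
    rw [embedRow_equivariant]; exact congrArg _ (hb u hu)
  let W : Submodule k k[G] := LinearMap.range (embedRow A i₀)
  have hW : ∀ g, ∀ x ∈ W, dl k g * x ∈ W := by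
    rintro g _ ⟨m, rfl⟩
    exact ⟨A g *ᵥ m, (embedRow_equivariant A i₀ g m).symm⟩
  obtain ⟨θ, c, v, hvW, hv0, hvf, hvθ, hvc⟩ : ∃ (θ : G → k) (c : P.S → k) (v : k[G]), v ∈ W ∧ v ≠ 0 ∧
      IsFix d.U v ∧ Eig (P := P) θ v ∧ ∀ s, d.tau s * v = c s • v := by
    rcases d.exists_prof_or_st (p := p) ha0 haf with ⟨θ, c, v, ⟨h0, h1, h2, h3, -⟩, hv⟩ | ⟨y, ⟨h0, h1, h2, h3⟩, hy⟩
    · exact ⟨θ, c, v, hv W hW ⟨b, rfl⟩, h0, h1, h2, h3⟩
    · exact ⟨_, fun _ => -1, y, hy W hW ⟨b, rfl⟩, h0, h1, h2, h3⟩
  have hcase : ∀ s, (c s = 0) ∨ (c s = -1 ∧ ∀ u, θ (d.hh s u) = 1) := by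
    intro s
    have h := d.tau_tau (p := p) hv0 hvf hvθ s
    rw [hvc s, mul_smul_comm, hvc s, smul_smul, smul_smul] at h
    have h2 := smul_left_injective k hv0 h
    by_cases h0 : c s = 0
    · exact Or.inl h0
    have h3 : c s = d.coef θ s := mul_right_cancel₀ h0 h2
    rcases d.coef_cases (p := p) hv0 hvθ s with ⟨h4, h5⟩ | ⟨h4, -⟩
    · exact Or.inr ⟨h3.trans h4, h5⟩
    · exact absurd (h3.trans h4) h0
  have hθm : ∀ g ∈ P.B ⊓ P.N, ∀ h ∈ P.B ⊓ P.N, θ (g * h) = θ g * θ h := fun g hg h hh => eig_mul hv0 hvθ hg hh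
  let θh : ↥(P.B ⊓ P.N) →* k :=
    { toFun := fun g => θ g
      map_one' := eig_one hv0 hvθ
      map_mul' := fun g h => hθm g g.2 h h.2 }
  let χ : ↥(P.B ⊓ P.N) →* kˣ := θh.toHomUnits
  have hχ : ∀ g (hg : g ∈ P.B ⊓ P.N), thetaFun χ g = θ g := fun g hg => by
    rw [thetaFun, dif_pos hg]; rfl
  have : Fintype P.S := Fintype.ofFinite _
  let J : Finset P.S := Finset.univ.filter fun s => c s ≠ 0
  have hc : ∀ s, tauVal J s = c s := fun s => by
    rcases hcase s with h | ⟨h, -⟩
    · rw [tauVal, if_neg (by simp [J, h]), h]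
    · rw [tauVal, if_pos (by simp [J, h]), h]
  refine ⟨⟨(χ, J), fun s hs u => Units.ext ?_⟩, ?_⟩
  · rw [Units.val_one]
    change θ (d.hh s u) = 1
    exact ((hcase s).resolve_left (Finset.mem_filter.1 hs).2).2 u
  obtain ⟨w, rfl⟩ := hvW
  refine ⟨w, fun h => hv0 (by rw [h, map_zero]), fun u hu => ?_, fun h hh => ?_, fun s => ?_⟩
  · refine hinj ?_
    rw [vecRep_apply, ← embedRow_equivariant]
    exact hvf u hu
  · refine hinj ?_
    rw [vecRep_apply, ← embedRow_equivariant, map_smul, hvθ h hh, hχ h hh]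
  · refine hinj ?_
    rw [map_sum, map_smul]
    simp only [vecRep_apply, ← embedRow_equivariant]
    rw [← Finset.sum_mul, hc]
    exact hvc s

omit [Fintype F] [Fact p.Prime] [CharP F p] [CharP k p] [IsAlgClosed k] in
theorem profile_eq [Fintype F] {ι : Type*} [Fintype ι] [DecidableEq ι] {A : G →* Matrix ι ι k} {π π' : d.Profile k}
    {w : ι → k} (h0 : w ≠ 0) (h : d.Good (vecRep A) (thetaFun π.1.1) (tauVal π.1.2) w)
    (h' : d.Good (vecRep A) (thetaFun π'.1.1) (tauVal π'.1.2) w) : π = π' := by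
  have hinj := smul_left_injective k h0
  refine Subtype.ext (Prod.ext (MonoidHom.ext fun g => Units.ext ?_) (Finset.ext fun s => ?_))
  · have e := hinj ((h.eig g g.2).symm.trans (h'.eig g g.2))
    rwa [thetaFun, thetaFun, dif_pos g.2, dif_pos g.2] at e
  · have e : tauVal (k := k) π.1.2 s = tauVal π'.1.2 s := hinj ((h.tau s).symm.trans (h'.tau s))
    simp only [tauVal] at e
    split_ifs at e with a b b
    · exact iff_of_true a b
    · exact absurd (neg_eq_zero.1 e) one_ne_zero
    · exact absurd (neg_eq_zero.1 e.symm) one_ne_zero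
    · exact iff_of_false a b

include p in
/-- The `p`-regular classes are as many as the admissible systems of eigenvalues. -/
theorem natCard_regular_profile (hU : IsPGroup p d.U) (H : d.WeylHyp) :
    Nat.card {c : ConjClasses G // ∃ g, ConjClasses.mk g = c ∧ Cfsg.IsPRegular p g} = Nat.card (d.Profile k) := by
  have : Fintype P.S := Fintype.ofFinite _
  haveI : FiniteDimensional k k[G] := Module.Finite.equiv (MonoidAlgebra.coeffLinearEquiv k (M := G)).symm
  obtain ⟨n, dd, f, hd, hf, hker⟩ := CfsgLib.Blocks.exists_mats_hom (k := k) (A := k[G])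
  rw [natCard_regular_classes f hf hker]
  let A : ∀ c : Fin n, G →* Matrix (Fin (dd c)) (Fin (dd c)) k := fun c =>
    (((Pi.evalAlgHom k (fun c => Matrix (Fin (dd c)) (Fin (dd c)) k) c).comp f : k[G] →ₐ[k] _) : k[G] →* _).comp
      (MonoidAlgebra.of k G)
  have hAd : ∀ c g, A c g = f (dl k g) c := fun c g => rfl
  have hsum : ∀ (c : Fin n) (a : k[G]), ∑ g, a.coeff g • A c g = f a c := fun c a => by
    have e : a = ∑ g : G, a.coeff g • dl k g := by
      refine MonoidAlgebra.ext (Finsupp.ext fun x => ?_)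
      simp [dl, MonoidAlgebra.coeff_sum, Finsupp.single_apply]
    conv_rhs => rw [e, map_sum, Finset.sum_apply]
    exact Finset.sum_congr rfl fun g _ => by rw [map_smul, Pi.smul_apply, hAd]
  have hirr : ∀ c, Irr (A c) := fun c X => by
    obtain ⟨a, ha⟩ := hf (Pi.single c X)
    exact ⟨fun g => a.coeff g, by rw [hsum, ha, Pi.single_eq_same]⟩
  have hne : ∀ c, Nonempty (Fin (dd c)) := fun c => ⟨⟨0, Nat.pos_of_neZero _⟩⟩
  obtain ⟨w₁, hw₁'⟩ := H.long Finset.univ
  have hw₁ : ∀ x, (InWord P Set.univ x ∧ ∀ s ∈ (Set.univ : Set P.S), len P (x * gen P s) < len P x) ↔ x = w₁ := by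
    simpa only [Finset.coe_univ] using hw₁'
  obtain ⟨n₀, hn₀, hn₀w⟩ := exists_toW P w₁
  choose Φ w hw0 hw using fun c => haveI := hne c; d.exists_good hU (hirr c)
  refine ((Nat.card_congr (Equiv.ofBijective Φ ⟨fun c e hce => ?_, fun π => ?_⟩)).symm.trans
    (Nat.card_fin n)).symm
  · by_contra hne'
    obtain ⟨a, ha⟩ := hf (Pi.single c 1)
    refine good_exclusive d hw₁ hU (hirr c) (hirr e) (hw c) (hce.symm ▸ hw e) (hw0 c) (hw0 e) hn₀ hn₀w
      (a := fun g => a.coeff g) (by rw [hsum, ha, Pi.single_eq_same]) ?_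
    rw [hsum, ha, Pi.single_eq_of_ne (Ne.symm hne')]
  · obtain ⟨v, hv0, hvf, hvθ, hvτ⟩ := d.exists_vec (p := p) (θ := thetaFun π.1.1) (thetaFun_one _)
      (fun g hg h hh => thetaFun_mul _ hg hh) hU H π.1.2 (fun s hs u => by
        rw [thetaFun, dif_pos (d.hh_mem s u), π.2 s hs u, Units.val_one])
    let Ann : Submodule k k[G] := LinearMap.ker (LinearMap.mulRight k v)
    obtain ⟨c, m, hm0, hm⟩ : ∃ c, ∃ m : Fin (dd c) → k, m ≠ 0 ∧ ∀ a : k[G], a * v = 0 → f a c *ᵥ m = 0 := by
      by_contra hcon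
      push Not at hcon
      have hrow : ∀ c, ∀ i : Fin (dd c), ∃ a : k[G], a * v = 0 ∧ f a = Pi.single c (Matrix.single i i 1) := by
        intro c i
        haveI := hd c
        let row : k[G] →ₗ[k] (Fin (dd c) → k) :=
          { toFun := fun a => f a c 0
            map_add' := fun a b => by rw [map_add]; rfl
            map_smul' := fun r a => by rw [map_smul]; rfl }
        have htop : Ann.map row = ⊤ := by
          by_contra hne'
          obtain ⟨φ, hφ0, hφ⟩ := Submodule.exists_le_ker_of_lt_top _ (lt_top_iff_ne_top.2 hne')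
          have hφm : ∀ r : Fin (dd c) → k, φ r = r ⬝ᵥ fun j => φ (Pi.single j 1) := fun r => by
            conv_lhs => rw [pi_eq_sum_univ r, map_sum]
            exact Finset.sum_congr rfl fun j _ => by
              rw [map_smul, smul_eq_mul]; congr 2; funext l; simp [Pi.single_apply, eq_comm]
          have hm0 : (fun j => φ (Pi.single j (1 : k))) ≠ 0 := fun h => hφ0 (LinearMap.ext fun r => by
            rw [hφm r, h, dotProduct_zero, LinearMap.zero_apply])
          obtain ⟨a, ha, hane⟩ := hcon c _ hm0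
          refine hane (funext fun l => ?_)
          obtain ⟨b, hb⟩ := hf (Pi.single c (Matrix.single 0 l 1))
          have h1 : row (b * a) ∈ LinearMap.ker φ := hφ (Submodule.mem_map_of_mem (by
            change b * a * v = 0
            rw [mul_assoc, ha, mul_zero]))
          rw [LinearMap.mem_ker, hφm] at h1
          have h2 : row (b * a) = f a c l := by
            funext j
            change f (b * a) c 0 j = _
            rw [map_mul, Pi.mul_apply, hb, Pi.single_eq_same, Matrix.single_mul_apply_same, one_mul]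
          rw [h2] at h1
          exact h1
        obtain ⟨a, ha, hai⟩ : (Pi.single i (1 : k) : Fin (dd c) → k) ∈ Ann.map row := htop ▸ Submodule.mem_top
        obtain ⟨b, hb⟩ := hf (Pi.single c (Matrix.single i 0 1))
        refine ⟨b * a, by rw [mul_assoc, show a * v = 0 from ha, mul_zero], ?_⟩
        rw [map_mul, hb]
        funext e
        rw [Pi.mul_apply]
        rcases eq_or_ne e c with rfl | hec
        · rw [Pi.single_eq_same, Pi.single_eq_same]
          ext r l
          rcases eq_or_ne r i with rfl | hri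
          · rw [Matrix.single_mul_apply_same, one_mul]
            change row a l = _
            rw [hai]
            by_cases hl : r = l
            · subst hl; simp
            · simp [hl, Pi.single_eq_of_ne (Ne.symm hl)]
          · rw [Matrix.single_mul_apply_of_ne (h := hri), Matrix.single_apply_of_row_ne (Ne.symm hri)]
        · rw [Pi.single_eq_of_ne hec, Pi.single_eq_of_ne hec, zero_mul]
      choose a ha hfa using hrow
      have hone : f (∑ c, ∑ i, a c i) = 1 := by
        simp only [map_sum, hfa]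
        funext e
        rw [Finset.sum_apply, Finset.sum_eq_single e]
        · rw [Finset.sum_apply]
          simp only [Pi.single_eq_same, Pi.one_apply]
          ext r l
          simp [Matrix.sum_apply, Matrix.one_apply, Matrix.single_apply]
          split_ifs with h
          · subst h; simp [Finset.filter_eq']
          · rw [Finset.filter_false_of_mem fun i _ hh => h (hh.1.symm.trans hh.2)]
            simp
        · intro c _ hce
          rw [Finset.sum_apply]
          exact Finset.sum_eq_zero fun i _ => Pi.single_eq_of_ne (Ne.symm hce) _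
        · simp
      set j := ∑ c, ∑ i, a c i with hj
      have hjv : j * v = 0 := by
        simp only [hj, Finset.sum_mul]
        exact Finset.sum_eq_zero fun c _ => Finset.sum_eq_zero fun i _ => ha c i
      have hunit : IsUnit j := by
        have := (hker (1 - j) (by rw [map_sub, map_one, hone, sub_self])).isUnit_one_sub
        rwa [sub_sub_cancel] at this
      exact hv0 (hunit.mul_right_eq_zero.1 hjv)
    refine ⟨c, ?_⟩
    haveI := hne c
    have hgood : d.Good (vecRep (A c)) (thetaFun π.1.1) (tauVal π.1.2) m := by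
      refine ⟨fun u hu => ?_, fun h hh => ?_, fun s => ?_⟩
      · have h1 := hm (dl k u - 1) (by rw [sub_mul, one_mul, hvf u hu, sub_self])
        rwa [map_sub, map_one, Pi.sub_apply, Pi.one_apply, Matrix.sub_mulVec, Matrix.one_mulVec, sub_eq_zero] at h1
      · have h1 := hm (dl k h - thetaFun π.1.1 h • 1) (by rw [sub_mul, smul_mul_assoc, one_mul, hvθ h hh, sub_self])
        rwa [map_sub, map_smul, map_one, Pi.sub_apply, Pi.smul_apply, Pi.one_apply, Matrix.sub_mulVec,
          Matrix.smul_mulVec, Matrix.one_mulVec, sub_eq_zero] at h1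
      · have h1 := hm (d.tau s - (tauVal π.1.2 s : k) • 1) (by
          rw [sub_mul, smul_mul_assoc, one_mul, hvτ s]; exact sub_self _)
        rw [map_sub, map_smul, map_one, Pi.sub_apply, Pi.smul_apply, Pi.one_apply, Matrix.sub_mulVec,
          Matrix.smul_mulVec, Matrix.one_mulVec, sub_eq_zero, tau, map_sum, Finset.sum_apply, Matrix.sum_mulVec] at h1
        exact h1
    obtain ⟨π', ψ, hψ0, hψ⟩ := d.exists_good hU (hirr c).dual
    obtain ⟨r, hr⟩ := fixed_line d hw₁ (hirr c) hψ hψ0 hn₀ hn₀w (fun u hu => (hw c).fix u hu)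
      (fun u hu => hgood.fix u hu) (hw0 c)
    refine d.profile_eq hm0 ⟨fun u hu => ?_, fun h hh => ?_, fun s => ?_⟩ hgood
    · rw [hr, map_smul, (hw c).fix u hu]
    · rw [hr, map_smul, (hw c).eig h hh, smul_comm]
    · simp only [hr, map_smul]
      rw [← Finset.smul_sum, (hw c).tau s, smul_comm]


include p in
/-- The admissible systems of eigenvalues number `q` to the rank when the torus is split of full order. -/
theorem natCard_profile [Fintype P.S] (hT : Nat.card ↥(P.B ⊓ P.N) = (Fintype.card F - 1) ^ Fintype.card P.S) :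
    Nat.card (d.Profile k) = Fintype.card F ^ Fintype.card P.S := by
  set T := P.B ⊓ P.N
  letI : CommGroup T := { (inferInstance : Group T) with mul_comm := fun a b => Subtype.ext (d.torus_comm a a.2 b b.2) }
  let hT' : P.S → (Fˣ →* T) := fun s => (d.hh s).codRestrict T (d.hh_mem s)
  let Ψ : (P.S → Fˣ) →* T :=
    { toFun := fun c => ∏ s, hT' s (c s)
      map_one' := by simp
      map_mul' := fun c e => by simp [Finset.prod_mul_distrib] }
  have hΨsingle : ∀ s u, Ψ (Pi.mulSingle s u) = hT' s u := by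
    intro s u
    change ∏ t, hT' t ((Pi.mulSingle s u : P.S → Fˣ) t) = _
    rw [Finset.prod_eq_single s (fun t _ ht => by rw [Pi.mulSingle_eq_of_ne ht, map_one]) (by simp),
      Pi.mulSingle_eq_same]
  have hsurj : Function.Surjective Ψ := by
    have htop : T ≤ Ψ.range.map T.subtype := fun g hg => by
      refine (Subgroup.closure_le _).2 ?_ (d.gen_torus hg)
      rintro _ ⟨s, u, rfl⟩
      exact ⟨hT' s u, ⟨_, hΨsingle s u⟩, rfl⟩
    intro g
    obtain ⟨g', ⟨c, hc⟩, e⟩ := htop g.2
    exact ⟨c, hc.trans (Subtype.ext e)⟩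
  have hinj : Function.Injective Ψ := (Nat.bijective_iff_surjective_and_card _).2 ⟨hsurj, by
    rw [hT, Nat.card_pi, Finset.prod_const, Finset.card_univ, Nat.card_units, Nat.card_eq_fintype_card]⟩ |>.1
  let Ψe : (P.S → Fˣ) ≃* T := MulEquiv.ofBijective Ψ ⟨hinj, hsurj⟩
  have hrec : ∀ (χ : T →* kˣ) (g : T), χ g = ∏ s, χ (hT' s (Ψe.symm g s)) := by
    intro χ g
    conv_lhs => rw [← Ψe.apply_symm_apply g]
    change χ (∏ s, hT' s (Ψe.symm g s)) = _
    rw [map_prod]
  let E : d.Profile k ≃ ∀ _ : P.S, {x : (Fˣ →* kˣ) × Bool // x.2 = true → x.1 = 1} :=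
    { toFun := fun π s => ⟨(π.1.1.comp (hT' s), decide (s ∈ π.1.2)), fun h =>
        MonoidHom.ext fun u => π.2 s (of_decide_eq_true h) u⟩
      invFun := fun y => ⟨({ toFun := fun g => ∏ s, (y s).1.1 (Ψe.symm g s)
                             map_one' := by simp
                             map_mul' := fun g h => by simp [Finset.prod_mul_distrib] },
          Finset.univ.filter fun s => (y s).1.2 = true), fun s hs u => by
        change ∏ t, (y t).1.1 (Ψe.symm (hT' s u) t) = 1
        rw [← hΨsingle, show Ψe.symm (Ψ (Pi.mulSingle s u)) = Pi.mulSingle s u from Ψe.symm_apply_apply _,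
          Finset.prod_eq_single s (fun t _ ht => by rw [Pi.mulSingle_eq_of_ne ht, map_one]) (by simp),
          Pi.mulSingle_eq_same, (y s).2 (Finset.mem_filter.1 hs).2, MonoidHom.one_apply]⟩
      left_inv := fun π => Subtype.ext (Prod.ext (MonoidHom.ext fun g => (hrec π.1.1 g).symm)
        (Finset.ext fun s => by simp))
      right_inv := fun y => funext fun s => Subtype.ext (Prod.ext (MonoidHom.ext fun u => by
        change ∏ t, (y t).1.1 (Ψe.symm (hT' s u) t) = (y s).1.1 u
        rw [← hΨsingle, show Ψe.symm (Ψ (Pi.mulSingle s u)) = Pi.mulSingle s u from Ψe.symm_apply_apply _,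
          Finset.prod_eq_single s (fun t _ ht => by rw [Pi.mulSingle_eq_of_ne ht, map_one]) (by simp),
          Pi.mulSingle_eq_same])
        (by simp)) }
  rw [Nat.card_congr E, Nat.card_pi, Finset.prod_const, Finset.card_univ]
  congr 1
  let O : {x : (Fˣ →* kˣ) × Bool // x.2 = true → x.1 = 1} ≃ Option (Fˣ →* kˣ) :=
    { toFun := fun x => bif x.1.2 then none else some x.1.1
      invFun := fun o => o.elim ⟨(1, true), fun _ => rfl⟩ fun φ => ⟨(φ, false), by simp⟩
      left_inv := fun x => by
        obtain ⟨⟨φ, b⟩, h⟩ := x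
        cases b
        · rfl
        · exact Subtype.ext (Prod.ext (h rfl).symm rfl)
      right_inv := fun o => by cases o <;> rfl }
  have hexp : NeZero ((Monoid.exponent Fˣ : ℕ) : k) := ⟨fun h0 => by
    rw [IsCyclic.exponent_eq_card, Nat.card_units, Nat.card_eq_fintype_card] at h0
    have := (coprime_card_sub_one (F := F) p 1).coprime_dvd_right ((CharP.cast_eq_zero_iff k p _).1 h0 |> fun _ => (pow_one p).symm.dvd)
    rw [Nat.coprime_comm] at this
    exact (Fact.out : p.Prime).coprime_iff_not_dvd.1 this ((CharP.cast_eq_zero_iff k p _).1 h0)⟩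
  obtain ⟨e⟩ := CommGroup.monoidHom_mulEquiv_of_hasEnoughRootsOfUnity Fˣ k
  rw [Nat.card_congr O, Finite.card_option, Nat.card_congr e.toEquiv, Nat.card_units, Nat.card_eq_fintype_card]
  have := Fintype.one_lt_card (α := F)
  omega

end SplitData

end CfsgLib.SteinbergChar
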