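import Cfsg.Agent.SteinbergChar.SplitChev
import Cfsg.Agent.SteinbergChar.WeightCount

/-!
The relations of the Weyl group representatives of a Chevalley group; the count of the classes of
elements of order prime to the characteristic.
-/

set_option autoImplicit false

namespace CfsgLib.SteinbergChar

open Cfsg.Lie CfsgLib.BNPair CfsgLib.Chevalley

variable {D : ChevalleyDatum} (S : Sys D) (F : Type*) [Field F]

theorem simpleGen_genIdx (s : (S.bnPair F).S) : simpleGen S F (genIdx S F s) = s :=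
  (genEquiv S F).apply_symm_apply s

theorem conj_gen_nG {s t : (S.bnPair F).S} {m : ↥(D.group F)} (hm : m ∈ (S.bnPair F).N)
    (he : toW (S.bnPair F) m hm * gen _ t = gen _ s * toW _ m hm)
    (hlt : len _ (toW (S.bnPair F) m hm) < len _ (toW (S.bnPair F) m hm * gen _ t)) :
    ∃ c : F, c ≠ 0 ∧ ∀ a : F, (m : GL D.Idx F) * S.nG F (D.simple (genIdx S F t)) a * (m : GL D.Idx F)⁻¹ =
      S.nG F (D.simple (genIdx S F s)) (c * a) := by
  classical
  set i := genIdx S F t with hi
  set j := genIdx S F s with hj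
  set n : ↥(D.monomialSubgroup F) := ⟨(m : GL D.Idx F), hm⟩
  have hn : S.perm F n = wPerm S F (toW (S.bnPair F) m hm) := rfl
  have he' := congrArg (wPerm S F) he
  rw [map_mul, map_mul, ← simpleGen_genIdx S F t, ← simpleGen_genIdx S F s, wPerm_gen, wPerm_gen, ← hn,
    ← hi, ← hj] at he'
  have hpos : D.nroots / 2 ≤ (S.perm F n (S.simpleF i) : ℕ) := by
    by_contra hlt'
    have h2 := (card_mul_srefl_le S i (σ := S.perm F n) (fun r => S.perm_negF F n r)).2 (by omega)
    rw [len_eq_card S F, len_eq_card S F, map_mul, ← simpleGen_genIdx S F t, wPerm_gen, ← hn, ← hi] at hlt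
    omega
  have himg : S.perm F n (S.simpleF i) = S.simpleF j := by
    by_contra hne
    have h1 := S.srefl_pos j hpos hne
    have h2 := congrArg (fun σ : Equiv.Perm (Fin D.nroots) => σ (S.simpleF i)) he'
    simp only [Equiv.Perm.mul_apply, S.srefl_simple, S.perm_negF] at h2
    rw [← h2] at h1
    have := (S.lt_half_negF (s := S.perm F n (S.simpleF i))).2 hpos
    omega
  obtain ⟨c, hc, hct⟩ := S.conj_root F n (S.simpleF i)
  rw [himg] at hct
  refine ⟨c, hc, fun a => ?_⟩
  change (n : GL D.Idx F) * S.nG F (D.simple i) a * (n : GL D.Idx F)⁻¹ = _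
  rw [S.nG_eq, S.nG_eq]
  calc _ = ((n : GL D.Idx F) * S.xG F (D.simple i) a * (n : GL D.Idx F)⁻¹) *
        ((n : GL D.Idx F) * S.xG F (D.neg (D.simple i)) (-a⁻¹) * (n : GL D.Idx F)⁻¹) *
        ((n : GL D.Idx F) * S.xG F (D.simple i) a * (n : GL D.Idx F)⁻¹) := by group
    _ = _ := by
      rw [show D.simple i = (S.simpleF i : ℕ) from rfl, (hct a).1, (hct (-a⁻¹)).2,
        show -(c * a)⁻¹ = c⁻¹ * -a⁻¹ by rw [mul_inv_rev, mul_neg, mul_comm]]
      rfl

theorem tor_single_mul (i : ℕ) (a b : Fˣ) :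
    tor D F (Pi.mulSingle i a) * tor D F (Pi.mulSingle i b) = tor D F (Pi.mulSingle i (a * b)) := by
  rw [← map_mul, ← Pi.mulSingle_mul]

/-- The Weyl group data of a Chevalley group. -/
theorem weylHyp : (splitData S F).WeylHyp where
  long K := by
    obtain ⟨w₁, h1, h2⟩ := exists_desc S F K
    exact ⟨w₁, fun w => ⟨fun h => desc_unique S F h.1 (fun s hs => h.2 s (Finset.mem_coe.2 hs)) h1 h2,
      fun h => h ▸ ⟨h1, fun s hs => h2 s (Finset.mem_coe.1 hs)⟩⟩⟩
  diff s h hh := by
    have hh' := (mem_borel_inf S F).1 hh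
    rw [S.diagonal_eq] at hh'
    obtain ⟨c, hc⟩ := hh'
    refine ⟨(torusVal D c (D.simple (genIdx S F s)))⁻¹, Subtype.ext ?_⟩
    change (s.1 : GL D.Idx F)⁻¹ * (h : GL D.Idx F) * (s.1 : GL D.Idx F) =
      (h : GL D.Idx F) * ((genH S F s _ : ↥(D.group F)) : GL D.Idx F)
    rw [genIdx_coe, genH_coe, ← hc]
    set i := genIdx S F s
    set τ := torusVal D c (D.simple i) with hτ
    have e1 := S.nG_tor F i.isLt (c * Pi.mulSingle (i : ℕ) τ⁻¹)
    have hval : torusVal D (c * Pi.mulSingle (i : ℕ) τ⁻¹) (D.simple i) = τ⁻¹ := by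
      rw [show torusVal D (c * Pi.mulSingle (i : ℕ) τ⁻¹) (D.simple i) =
        torusVal D c (D.simple i) * torusVal D (Pi.mulSingle (i : ℕ) τ⁻¹) (D.simple i) by
          simp only [torusVal, Pi.mul_apply, mul_zpow, Finset.prod_mul_distrib], ← hτ]
      rw [show torusVal D (Pi.mulSingle (i : ℕ) τ⁻¹) (D.simple i) = τ⁻¹ ^ (2 : ℤ) by
        rw [torusVal, Finset.prod_eq_single_of_mem (i : ℕ) (Finset.mem_range.2 i.isLt), Pi.mulSingle_eq_same,
          S.cartan_simple i.isLt]
        intro b _ hb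
        rw [Pi.mulSingle_eq_of_ne hb, one_zpow]]
      rw [zpow_two, ← mul_assoc, mul_inv_cancel, one_mul]
    rw [hval, inv_inv, mul_assoc c, ← Pi.mulSingle_mul, inv_mul_cancel, Pi.mulSingle_one, mul_one] at e1
    rw [mul_assoc, ← e1, ← mul_assoc, inv_mul_cancel, one_mul, map_mul]
  conjn s t m hm he hlt := by
    obtain ⟨c, hc, h⟩ := conj_gen_nG S F hm he hlt
    refine ⟨Units.mk0 c hc, Subtype.ext ?_⟩
    change (m : GL D.Idx F) * (t.1 : GL D.Idx F) * (m : GL D.Idx F)⁻¹ =
      ((genH S F s _ : ↥(D.group F)) : GL D.Idx F) * (s.1 : GL D.Idx F)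
    rw [genIdx_coe, genIdx_coe, genH_coe, h 1, mul_one, ← nG_eq_tor_mul S F (genIdx S F s).isLt, Units.val_mk0]
  conj s t m hm he hlt u := by
    obtain ⟨c, hc, h⟩ := conj_gen_nG S F hm he hlt
    refine ⟨u, Subtype.ext ?_⟩
    change (m : GL D.Idx F) * ((genH S F t u : ↥(D.group F)) : GL D.Idx F) * (m : GL D.Idx F)⁻¹ =
      ((genH S F s u : ↥(D.group F)) : GL D.Idx F)
    rw [genH_coe, genH_coe]
    set i := genIdx S F t
    set j := genIdx S F s
    have e : tor D F (Pi.mulSingle (i : ℕ) u) =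
        S.nG F (D.simple i) (u : F) * (S.nG F (D.simple i) 1)⁻¹ := by
      rw [nG_eq_tor_mul S F i.isLt, mul_inv_cancel_right]
    rw [e, show (m : GL D.Idx F) * (S.nG F (D.simple i) (u : F) * (S.nG F (D.simple i) 1)⁻¹) * (m : GL D.Idx F)⁻¹ =
      ((m : GL D.Idx F) * S.nG F (D.simple i) (u : F) * (m : GL D.Idx F)⁻¹) *
        ((m : GL D.Idx F) * S.nG F (D.simple i) 1 * (m : GL D.Idx F)⁻¹)⁻¹ by group, h _, h 1,
      show c * (u : F) = ((Units.mk0 c hc * u : Fˣ) : F) by simp, show c * 1 = ((Units.mk0 c hc : Fˣ) : F) by simp,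
      nG_eq_tor_mul S F j.isLt, nG_eq_tor_mul S F j.isLt, mul_inv_rev, ← mul_assoc, mul_inv_cancel_right,
      ← map_inv, ← map_mul, ← Pi.mulSingle_inv, ← Pi.mulSingle_mul]
    congr 2
    rw [mul_comm (Units.mk0 c hc) u, mul_inv_cancel_right]

include S in
open Cfsg in
/-- The classes of elements of order prime to the characteristic number `q` to the rank, when the torus has order `(q - 1)` to the rank. -/
theorem natCard_regular_classes_chev [Fintype F] (p : ℕ) [Fact p.Prime] [CharP F p]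
    (hT : Nat.card ↥(D.diagonalSubgroup F) = (Fintype.card F - 1) ^ D.rank) :
    Nat.card {c : ConjClasses ↥(D.group F) // ∃ g : ↥(D.group F), ConjClasses.mk g = c ∧ ¬ p ∣ orderOf g} =
      Fintype.card F ^ D.rank := by
  classical
  have := Fintype.ofFinite ↥(D.group F)
  let : Fintype (S.bnPair F).S := Fintype.ofEquiv _ (genEquiv S F)
  have hcard : Fintype.card (S.bnPair F).S = D.rank := by
    rw [← Fintype.card_congr (genEquiv S F), Fintype.card_fin]
  have hT' : Nat.card ↥((S.bnPair F).B ⊓ (S.bnPair F).N) = (Fintype.card F - 1) ^ Fintype.card (S.bnPair F).S := by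
    rw [hcard, ← hT, ← Nat.card_congr (Subgroup.subgroupOfEquivOfLe (S.diagonal_le_group F)).toEquiv]
    refine Nat.card_congr (Equiv.subtypeEquivRight fun g => ?_)
    rw [Subgroup.mem_subgroupOf]
    exact mem_borel_inf S F
  have := (splitData S F).natCard_regular_profile (k := AlgebraicClosure (ZMod p)) (p := p)
    (isPGroup_posUnipotent S F p) (weylHyp S F)
  rw [(splitData S F).natCard_profile (p := p) hT', hcard] at this
  exact this

end CfsgLib.SteinbergChar

namespace CfsgLib.SteinbergChar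

/-- Coprimality to `p` in place of non-divisibility. -/
theorem natCard_coprime_classes {G : Type*} [Group G] (p : ℕ) [hp : Fact p.Prime] :
    Nat.card {c : ConjClasses G // ∃ g : G, ConjClasses.mk g = c ∧ (orderOf g).Coprime p} =
      Nat.card {c : ConjClasses G // ∃ g : G, ConjClasses.mk g = c ∧ ¬ p ∣ orderOf g} :=
  Nat.card_congr (Equiv.subtypeEquivRight fun _ => exists_congr fun _ => and_congr_right fun _ => by
    rw [Nat.coprime_comm, hp.out.coprime_iff_not_dvd])

end CfsgLib.SteinbergChar
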