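import Cfsg.Agent.SteinbergChar.Centralizer
import Cfsg.Agent.Blocks.Basic.Principal

/-!
A split Chevalley group whose maximal parabolics have radicals with unipotent centraliser has two
`p`-blocks in its own characteristic.
-/

set_option autoImplicit false

open scoped MonoidAlgebra

namespace CfsgLib.SteinbergChar

open CfsgLib.BNPair CfsgLib.SlBlocks CfsgLib.Chevalley

namespace SplitData

variable {G : Type*} [Group G] {P : Cfsg.BNPair G} {F : Type*} [Field F] (d : SplitData P F)
  {k : Type*} [Field k] [Finite G] [Fintype F] {p : ℕ} [Fact p.Prime] [CharP k p]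

/-- A central element supported on the `p`-regular classes acts on every eigenvector of the
operators that is not of Steinberg type by its coefficient at the identity. -/
theorem mul_of_prof_regular [Fintype P.S] [DecidableEq P.S] (hU : IsPGroup p d.U)
    (hrad : ∀ s : P.S, ∃ Q : Subgroup G, Q ≤ d.U ∧
      (∀ g ∈ para P (Finset.univ.erase s), ∀ q ∈ Q, g * q * g⁻¹ ∈ Q) ∧
      ∀ x : G, ¬ p ∣ orderOf x → (∀ q ∈ Q, x * q = q * x) → x = 1)
    {e : k[G]} (hc : ∀ g, dl k g * e = e * dl k g) (hreg : ∀ g, e.coeff g ≠ 0 → ¬ p ∣ orderOf g)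
    {θ : G → k} {c : P.S → k} {v : k[G]} (h : d.IsProf θ c v) : e * v = e.coeff 1 • v := by
  classical
  obtain ⟨-, hv, hθ, hcs, s₀, hs₀⟩ := h
  obtain ⟨Q, hQU, hQn, hQc⟩ := hrad s₀
  have := Fintype.ofFinite G
  rw [mul_eq_sum_cosets hv, ← Finset.sum_fiberwise Finset.univ (fun c : G ⧸ d.U => orb d.U c.out)]
  have key : ∀ O : Finset (G ⧸ d.U), (∑ c ∈ Finset.univ.filter (fun c : G ⧸ d.U => orb d.U c.out = O),
      (∑ w : d.U, e.coeff (c.out * w)) • (dl k c.out * v)) =
      if O = orb d.U (1 : G) then e.coeff 1 • v else 0 := by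
    intro O
    by_cases hO : ∃ c : G ⧸ d.U, orb d.U c.out = O
    swap
    · have hO1 : O ≠ orb d.U (1 : G) := fun e => hO ⟨((1 : G) : G ⧸ d.U), by
        obtain ⟨w, hw⟩ := QuotientGroup.mk_out_eq_mul d.U (1 : G)
        rw [e, hw]
        exact orb_eq_of_mem (one_mem _) w.2 (by simp)⟩
      rw [if_neg hO1]
      exact Finset.sum_eq_zero fun c hc => absurd ⟨c, (Finset.mem_filter.1 hc).2⟩ hO
    obtain ⟨c₀, rfl⟩ := hO
    obtain ⟨u, hu, n, hn, v', hv', e₀⟩ := d.exists_coset_rep c₀
    rw [d.fiber_eq c₀ hu hv' e₀]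
    have hconst : ∀ q ∈ orb d.U n, (∑ w : d.U, e.coeff (q.out * w)) • (dl k q.out * v) =
        (∑ w : d.U, e.coeff (n * w)) • (dl k q.out * v) := by
      intro q hq
      obtain ⟨a, ha, b, hb, e'⟩ := orb_out hq
      rw [e', d.sum_coset_orbit hc ha hb]
    rw [Finset.sum_congr rfl hconst, ← Finset.smul_sum, ← tel_mul, orb_eq_of_mem hu hv' e₀]
    have h1 : orb d.U n = orb d.U (1 : G) ↔ n ∈ d.U := by
      refine ⟨fun h => ?_, fun h => orb_eq_of_mem h (one_mem _) (by group)⟩
      have h2 := self_mem_orb d.U n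
      rw [h] at h2
      obtain ⟨w, hw, e'⟩ := mem_orb.1 h2
      rw [mul_one, QuotientGroup.eq] at e'
      simpa using mul_mem hw e'
    by_cases hP : n ∈ para P (Finset.univ.erase s₀)
    · have hsum : ∑ w : d.U, e.coeff (n * w) = if n ∈ d.U then e.coeff 1 else 0 := by
        have hQ : IsPGroup p Q := hU.to_le hQU
        letI : MulAction Q G := MulAction.compHom G ((MulAut.conj : G →* MulAut G).comp Q.subtype)
        have hsmul : ∀ (q : Q) (x : G), q • x = (q : G) * x * (q : G)⁻¹ := fun _ _ => rfl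
        have hsum : ∑ w : d.U, e.coeff (n * w) = ∑ x : G, if n⁻¹ * x ∈ d.U then e.coeff x else 0 := by
          rw [← Finset.sum_filter]
          exact Finset.sum_bij (fun v _ => n * (v : G)) (fun v _ => by simp)
            (fun v _ w _ h => Subtype.ext (mul_left_cancel h))
            (fun x hx => ⟨⟨n⁻¹ * x, (Finset.mem_filter.1 hx).2⟩, Finset.mem_univ _, by simp⟩) (fun _ _ => rfl)
        have : Fintype (MulAction.fixedPoints Q G) := Fintype.ofFinite _
        rw [hsum, CfsgLib.CharTable.sum_eq_sum_fixedPoints (P := Q) (X := G) hQ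
          (fun x => if n⁻¹ * x ∈ d.U then e.coeff x else 0) (fun q x => ?_)]
        · have hone : (1 : G) ∈ MulAction.fixedPoints Q G := fun q => by rw [hsmul]; group
          rw [Finset.sum_eq_single (⟨1, hone⟩ : MulAction.fixedPoints Q G)]
          · simp only [mul_one, inv_mem_iff]
          · intro x _ hx
            split_ifs
            · by_contra hne
              refine hx (Subtype.ext (hQc _ (hreg _ hne) fun q hq => ?_))
              exact (mul_inv_eq_iff_eq_mul.1 (x.2 ⟨q, hq⟩)).symm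
            · rfl
          · simp
        · show (if n⁻¹ * (q • x) ∈ d.U then e.coeff (q • x) else 0) = if n⁻¹ * x ∈ d.U then e.coeff x else 0
          rw [hsmul]
          have h1 : n⁻¹ * ((q : G) * x * (q : G)⁻¹) = (n⁻¹ * (q : G) * n) * (n⁻¹ * x) * (q : G)⁻¹ := by group
          have h2 : n⁻¹ * (q : G) * n ∈ d.U := hQU (by simpa using hQn n⁻¹ (inv_mem hP) q q.2)
          rw [h1, Subgroup.mul_mem_cancel_right _ (inv_mem (hQU q.2)), Subgroup.mul_mem_cancel_left _ h2,
            mul_assoc (q : G), coeff_comm hc (q : G) (x * (q : G)⁻¹), mul_assoc, inv_mul_cancel, mul_one]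
      rw [hsum]
      by_cases hnU : n ∈ d.U
      · rw [if_pos hnU, if_pos (h1.2 hnU), tel_eq_of_mem hnU (one_mem _) (g := (1 : G)) (by group), d.tel_one hv]
      · rw [if_neg hnU, if_neg (mt h1.1 hnU), zero_smul]
    · have hnU : n ∉ d.U := fun h => hP ((mem_para_iff P).2 ⟨1, .one _, by rw [cell_one]; exact d.le_B h⟩)
      rw [if_neg (mt h1.1 hnU)]
      obtain ⟨L, hL, hl⟩ := CfsgLib.BNPair.exists_reduced P (toW P n hn)
      obtain ⟨h, hh, e', ht⟩ := d.tel_eigen hv hθ hcs L n hn hL hl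
      have hmem : s₀ ∈ L := by
        by_contra hns
        refine hP ((mem_para_iff P).2 ⟨_, ⟨L, fun t ht => ?_, hL⟩, self_mem_cell P hn⟩)
        exact Finset.mem_coe.2 (Finset.mem_erase.2 ⟨fun h => hns (h ▸ ht), Finset.mem_univ _⟩)
      rw [ht, List.prod_eq_zero (List.mem_map.2 ⟨s₀, hmem, hs₀⟩), zero_mul, zero_smul, smul_zero]
  rw [Finset.sum_congr rfl fun O _ => key O, Finset.sum_ite_eq', if_pos (Finset.mem_univ _)]

/-- Among three pairwise orthogonal central idempotents supported on `p`-regular classes one is zero. -/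
theorem not_three [CharP F p] [IsAlgClosed k] [Fintype P.S] [DecidableEq P.S] (hU : IsPGroup p d.U)
    (hrad : ∀ s : P.S, ∃ Q : Subgroup G, Q ≤ d.U ∧
      (∀ g ∈ para P (Finset.univ.erase s), ∀ q ∈ Q, g * q * g⁻¹ ∈ Q) ∧
      ∀ x : G, ¬ p ∣ orderOf x → (∀ q ∈ Q, x * q = q * x) → x = 1)
    {e : Fin 3 → k[G]} (hc : ∀ i g, dl k g * e i = e i * dl k g)
    (hreg : ∀ i g, (e i).coeff g ≠ 0 → ¬ p ∣ orderOf g) (h0 : ∀ i, e i ≠ 0) (hi : ∀ i, e i * e i = e i)
    (horth : ∀ i j, i ≠ j → e i * e j = 0) : False := by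
  classical
  have htype : ∀ i, (∃ θ c v, d.IsProf θ c v ∧ e i * v = v) ∨ ∃ y, d.IsSt y ∧ e i * y = y := by
    intro i
    obtain ⟨b, hb0, hbf, hbe⟩ := exists_fix (p := p) (k := k) hU (h0 i)
    have heb : e i * b = b := hbe _ (hc i) (hi i)
    rcases d.exists_prof_or_st (p := p) hb0 hbf with ⟨θ, c, v, hv, hve⟩ | ⟨y, hy, hye⟩
    · exact Or.inl ⟨θ, c, v, hv, fix_of_mem (hc i) heb hve⟩
    · exact Or.inr ⟨y, hy, fix_of_mem (hc i) heb hye⟩
  have hst : ∀ i j, i ≠ j → (∃ y, d.IsSt y ∧ e i * y = y) → (∃ y, d.IsSt y ∧ e j * y = y) → False := by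
    rintro i j hij ⟨y, hy, hey⟩ ⟨y', hy', hey'⟩
    obtain ⟨φ, hφ⟩ := d.mul_of_st (hc j)
    have h1 : e j * y = 0 := by rw [← hey, ← mul_assoc, horth j i (Ne.symm hij), zero_mul]
    rw [hφ y hy, smul_eq_zero] at h1
    have h2 := hφ y' hy'
    rw [hey', h1.resolve_right hy.1, zero_smul] at h2
    exact hy'.1 h2
  have hprof : ∀ i j, i ≠ j → (∃ θ c v, d.IsProf θ c v ∧ e i * v = v) →
      (∃ θ c v, d.IsProf θ c v ∧ e j * v = v) → False := by
    rintro i j hij ⟨θ, c, v, hv, hev⟩ ⟨θ', c', v', hv', hev'⟩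
    have h1 : e j * v = 0 := by rw [← hev, ← mul_assoc, horth j i (Ne.symm hij), zero_mul]
    rw [d.mul_of_prof_regular hU hrad (hc j) (hreg j) hv, smul_eq_zero] at h1
    have h2 := d.mul_of_prof_regular hU hrad (hc j) (hreg j) hv'
    rw [hev', h1.resolve_right hv.1, zero_smul] at h2
    exact hv'.1 h2
  rcases htype 0 with a | a <;> rcases htype 1 with b | b <;> rcases htype 2 with c | c <;>
    first
    | exact hprof 0 1 (by decide) a b
    | exact hst 0 1 (by decide) a b
    | exact hprof 0 2 (by decide) a c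
    | exact hst 0 2 (by decide) a c
    | exact hprof 1 2 (by decide) b c
    | exact hst 1 2 (by decide) b c

end SplitData

open Cfsg CfsgLib.Blocks Cfsg.Lie in
/-- A Chevalley group with a spread diagram has two blocks in its own characteristic. -/
theorem natCard_blocks {D : ChevalleyDatum} (S : Sys D) (F : Type*) [Field F] [Fintype F] (p : ℕ)
    [Fact p.Prime] [CharP F p] (hS : Spread S) (hr : 0 < D.rank) (M : Ideal AlgInt) (hM : IsPModular p M) :
    Nat.card {B : Set (IrrCharacter ↥(D.group F)) // IsPBlock M B} = 2 := by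
  classical
  have := isMaximal_of_isPModular hM
  have := charP_kres hM
  have := Fintype.ofFinite ↥(D.group F)
  let St : IrrCharacter ↥(D.group F) := ⟨_, isIrrCharacter_steinberg S F⟩
  have hdeg : charDegree (St : ↥(D.group F) → ℂ) = Fintype.card F ^ (D.nroots / 2) :=
    CfsgLib.Chars.charDegree_eq_of_map_one (by
      change D.steinbergCharacter F 1 = _
      rw [steinbergCharacter_one S F]; simp)
  have hfull : p ^ (Nat.card ↥(D.group F)).factorization p ∣ charDegree (St : ↥(D.group F) → ℂ) := by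
    obtain ⟨Q, hQ⟩ := exists_sylow_eq S F p
    rw [hdeg, ← natCard_posUnipotent S F,
      ← Nat.card_congr (Subgroup.subgroupOfEquivOfLe (S.posUnipotent_le_group F)).toEquiv, ← hQ,
      Q.card_eq_multiplicity]
  have hndvd : ¬ p ∣ Nat.card ↥(D.group F) / charDegree (St : ↥(D.group F) → ℂ) := by
    intro hdvd
    have h2 := mul_dvd_mul hfull hdvd
    rw [Nat.mul_div_cancel' (CfsgLib.Chars.charDegree_dvd_card St), ← pow_succ] at h2
    exact Nat.pow_succ_factorization_not_dvd Nat.card_pos.ne' Fact.out h2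
  let B₁ : {B : Set (IrrCharacter ↥(D.group F)) // IsPBlock M B} :=
    ⟨{St}, St, ((Cfsg.Agent.S0914.result p M hM St).1 hndvd).symm⟩
  let B₀ : {B : Set (IrrCharacter ↥(D.group F)) // IsPBlock M B} := ⟨_, isPBlock_principalBlock⟩
  have hne : B₀ ≠ B₁ := by
    intro h
    have h1 : Chars.oneChar ↥(D.group F) ∈ principalBlock M ↥(D.group F) := oneChar_mem_principalBlock
    rw [show principalBlock M ↥(D.group F) = {St} from congrArg Subtype.val h, Set.mem_singleton_iff] at h1
    have h2 : charDegree (Chars.oneChar ↥(D.group F) : ↥(D.group F) → ℂ) = 1 :=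
      CfsgLib.Chars.charDegree_eq_of_map_one (by rw [Chars.oneChar_coe]; simp)
    rw [h1, hdeg] at h2
    have hN : 0 < D.nroots / 2 := by
      have h := S.simple_pos 0 hr
      have h' := S.wf.simple_lt 0 hr
      obtain ⟨m, hm⟩ := S.even
      omega
    exact absurd h2 (Nat.one_lt_pow hN.ne' Fintype.one_lt_card).ne'
  rw [Nat.card_eq_two_iff]
  refine ⟨B₀, B₁, hne, Set.eq_univ_of_forall fun B => ?_⟩
  by_contra hB
  rw [Set.mem_insert_iff, Set.mem_singleton_iff, not_or] at hB
  let b : Fin 3 → {B : Set (IrrCharacter ↥(D.group F)) // IsPBlock M B} := ![B₀, B₁, B]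
  have hinj : ∀ i j, i ≠ j → b i ≠ b j := by
    intro i j hij
    fin_cases i <;> fin_cases j <;> simp [b, hne, hne.symm, hB.1, hB.2, Ne.symm hB.1, Ne.symm hB.2] at hij ⊢
  let : Fintype (S.bnPair F).S := Fintype.ofFinite _
  refine (splitData S F).not_three (p := p) (isPGroup_posUnipotent S F p)
    (fun s => ⟨radU S F (Finset.univ.erase s), Subgroup.comap_mono (uSub_le_posUnipotent F _),
      fun g hg q hq => radU_conj S F _ hg hq, fun x hx h => eq_one_of_centralises S F p hS s hx h⟩)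
    (e := fun i => topEl M (b i).1)
    (fun i g => (isFixedBy_iff_commute.1 (isBlockIdem_topEl (b i).2).1.2 g (Subgroup.mem_top g)).eq)
    (fun i g hg hdvd => hg (by rw [coeff_topEl, blockCoeff_eq_zero_of_singular hM (b i).2 hdvd, redC_zero]))
    (fun i => (isBlockIdem_topEl (b i).2).ne_zero) (fun i => (isBlockIdem_topEl (b i).2).idem)
    (fun i j hij => (isBlockIdem_topEl (b i).2).orthogonal (isBlockIdem_topEl (b j).2)
      fun e => hinj i j hij (Subtype.ext (topEl_injective (b i).2 (b j).2 e)))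

end CfsgLib.SteinbergChar
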