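import Cfsg.Agent.SteinbergChar.SplitChev

/-!
In a Chevalley group whose diagram is connected, the only element of order prime to `p` centralising
the unipotent radical of a maximal parabolic subgroup is the identity.
-/

set_option autoImplicit false

namespace CfsgLib.SteinbergChar

open Cfsg.Lie CfsgLib.BNPair CfsgLib.Chevalley

variable {D : ChevalleyDatum} (S : Sys D) (F : Type*) [Field F]

/-- The roots above `α`, the root `α` excepted. -/
def aboveSet (α : ℕ) : Set ℕ := {r | r ≠ α ∧ ∀ j < D.rank, S.vec j α ≤ S.vec j r}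

/-- The roots above `α`. -/
def geSet (α : ℕ) : Set ℕ := {r | ∀ j < D.rank, S.vec j α ≤ S.vec j r}

/-- Every two fundamental roots are linked through the roots involving the first one. -/
def Spread : Prop :=
  ∀ s < D.rank, ∀ j < D.rank, j ≠ s → ∃ r < D.nroots, 0 < S.vec s r ∧ D.cartan j r = -1

theorem above_comb {α r s k : ℕ} (hr : r < D.nroots) (hr' : D.nroots / 2 ≤ r) (hs : s < D.nroots)
    (hs' : D.nroots / 2 ≤ s) (hα : ∀ j < D.rank, S.vec j α ≤ S.vec j r) {i j : ℕ} (hi : 1 ≤ i)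
    (hj : 1 ≤ j) (h : ∀ m < D.rank, S.vec m k = i * S.vec m r + j * S.vec m s) : k ∈ aboveSet S α := by
  obtain ⟨m, hm, hms⟩ := S.exists_vec_pos hs hs'
  have hle : ∀ m < D.rank, S.vec m r + S.vec m s ≤ S.vec m k := fun m hm => by
    rw [h m hm]
    exact add_le_add (le_mul_of_one_le_left (S.vec_pos r hr hr' m hm) (by omega))
      (le_mul_of_one_le_left (S.vec_pos s hs hs' m hm) (by omega))
  refine ⟨fun e => ?_, fun l hl => ?_⟩
  · have h1 := hle m hm
    have := hα m hm
    rw [e] at h1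
    omega
  · have := hle l hl
    have := hα l hl
    have := S.vec_pos s hs hs' l hl
    omega

theorem closed_above (α : ℕ) : S.Closed (aboveSet S α) := by
  intro r hr s _ hrp hsp k _ i j hi hj h
  obtain ⟨h1, h2⟩ := (S.pos_iff r).1 hrp
  obtain ⟨h3, h4⟩ := (S.pos_iff s).1 hsp
  exact above_comb S h2 h1 h4 h3 hr.2 hi hj h

theorem closed_ge (α : ℕ) : S.Closed (geSet S α) := by
  intro r hr s _ hrp hsp k _ i j hi hj h
  obtain ⟨h1, h2⟩ := (S.pos_iff r).1 hrp
  obtain ⟨h3, h4⟩ := (S.pos_iff s).1 hsp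
  exact (above_comb S h2 h1 h4 h3 hr hi hj h).2

/-- Conjugating a root element above `α` stays above `α`. -/
theorem conj_xG_above {α r s : ℕ} (hr : r < D.nroots) (hr' : D.nroots / 2 ≤ r) (hs : s < D.nroots)
    (hs' : D.nroots / 2 ≤ s) (hα : ∀ j < D.rank, S.vec j α ≤ S.vec j r) (t a : F) :
    ∃ w ∈ uSub D F (aboveSet S α), S.xG F s t * S.xG F r a * (S.xG F s t)⁻¹ = S.xG F r a * w := by
  by_cases hrs : r = s
  · subst hrs
    refine ⟨1, one_mem _, ?_⟩
    rw [mul_one, S.xG_inv, S.xG_add, S.xG_add, show t + a + -t = a by ring]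
  · have hneg : r ≠ D.neg s := fun e => by
      have := (S.neg_half s hs).mpr hs'
      omega
    refine ⟨S.wG F (D.commWord F s r (-t) a), S.wG_commWord_mem F hs hr _ a fun c hc => ?_, ?_⟩
    · obtain ⟨h1, h2, h3⟩ := S.commTerms_vec hs hr hc
      refine ⟨above_comb S hr hr' hs hs' hα h2 h1 (fun m hm => by rw [h3 m hm]; ring), ?_⟩
      have := S.commTerms_pos hs hs' hr hr' hc
      omega
    · rw [show S.xG F s t = (S.xG F s (-t))⁻¹ by rw [S.xG_inv, neg_neg], inv_inv, S.xG_comm F hs hr hrs hneg]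

theorem posUnipotent_le_normalizer_above (α : ℕ) :
    D.posUnipotent F ≤ Subgroup.normalizer (uSub D F (aboveSet S α) : Set (GL D.Idx F)) := by
  have hconj : ∀ s < D.nroots, D.nroots / 2 ≤ s → ∀ (t : F) (g : GL D.Idx F), g ∈ uSub D F (aboveSet S α) →
      S.xG F s t * g * (S.xG F s t)⁻¹ ∈ uSub D F (aboveSet S α) := by
    intro s hs hs' t g hg
    refine closure_conj_mem ?_ hg
    rintro x ⟨r, a, ⟨hrP, hrp⟩, hx⟩
    obtain ⟨hr', hr⟩ := (S.pos_iff r).1 hrp
    obtain ⟨w, hw, e⟩ := conj_xG_above S F hr hr' hs hs' hrP.2 t a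
    rw [S.eq_xG F hx, e]
    exact mul_mem (S.xG_mem_uSub F hrP hr' hr a) hw
  rw [← uSub_univ]
  refine S.uSub_le F fun s _ hs hs' t => ?_
  rw [Subgroup.mem_normalizer_iff]
  refine fun g => ⟨hconj s hs' hs t g, fun hg => ?_⟩
  have := hconj s hs' hs (-t) _ hg
  rwa [← S.xG_inv, inv_inv, show (S.xG F s t)⁻¹ * (S.xG F s t * g * (S.xG F s t)⁻¹) * S.xG F s t = g by group]
    at this

/-- Modulo the roots above it a positive root subgroup is central. -/
theorem conj_root_mod {α : ℕ} (hα : α < D.nroots) (hα' : D.nroots / 2 ≤ α) {u : GL D.Idx F}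
    (hu : u ∈ D.posUnipotent F) (a : F) :
    ∃ w ∈ uSub D F (aboveSet S α), u * S.xG F α a * u⁻¹ = S.xG F α a * w := by
  set N := uSub D F (aboveSet S α) with hN
  let H : Subgroup (GL D.Idx F) :=
    { carrier := {u | u ∈ Subgroup.normalizer (N : Set (GL D.Idx F)) ∧
        (S.xG F α a)⁻¹ * (u * S.xG F α a * u⁻¹) ∈ N}
      one_mem' := ⟨one_mem _, by simp⟩
      mul_mem' := fun {x y} hx hy => ⟨mul_mem hx.1 hy.1, by
        have h1 := (Subgroup.mem_normalizer_iff.mp hx.1 _).mp hy.2
        have := mul_mem hx.2 h1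
        convert this using 1
        group⟩
      inv_mem' := fun {x} hx => ⟨inv_mem hx.1, by
        have h1 := (Subgroup.mem_normalizer_iff.mp (inv_mem hx.1) _).mp (inv_mem hx.2)
        convert h1 using 1
        group⟩ }
  have hle : uSub D F Set.univ ≤ H := by
    refine S.uSub_le F fun s _ hs hs' t => ⟨posUnipotent_le_normalizer_above S F α ?_, ?_⟩
    · rw [← uSub_univ]; exact S.xG_mem_uSub F (Set.mem_univ _) hs hs' t
    · obtain ⟨w, hw, e⟩ := conj_xG_above S F hα hα' hs' hs (fun j _ => le_refl (S.vec j α)) t a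
      rw [e, inv_mul_cancel_left]
      exact hw
  have := hle (by rwa [uSub_univ] : u ∈ uSub D F Set.univ)
  exact ⟨_, this.2, by rw [mul_inv_cancel_left]⟩

theorem ordProd_single {β : ℕ} (hβ : β < D.nroots) (hβ' : D.nroots / 2 ≤ β) (b : F) :
    S.ordProd F (Pi.single β b) (D.nroots / 2) = S.xG F β b := by
  rw [Sys.ordProd, Sys.wG, List.map_map]
  rw [List.prod_map_eq_pow_single β _ (fun r hr _ => by simp [Pi.single_eq_of_ne hr, S.xG_zero]),
    List.count_eq_one_of_mem (List.nodup_range' ..) (by rw [List.mem_range'_1]; omega), pow_one]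
  simp

/-- Root elements of different positive roots are not conjugate under `U`. -/
theorem root_unique {α β : ℕ} (hα : α < D.nroots) (hα' : D.nroots / 2 ≤ α) (hβ : β < D.nroots)
    (hβ' : D.nroots / 2 ≤ β) {u : GL D.Idx F} (hu : u ∈ D.posUnipotent F) {a b : F} (ha : a ≠ 0)
    (h : u * S.xG F α a * u⁻¹ = S.xG F β b) : α = β ∧ a = b := by
  have key : ∀ {α β : ℕ}, α < D.nroots → D.nroots / 2 ≤ α → β < D.nroots → D.nroots / 2 ≤ β →
      ∀ {u : GL D.Idx F}, u ∈ D.posUnipotent F → ∀ {a b : F}, b ≠ 0 →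
      u * S.xG F α a * u⁻¹ = S.xG F β b → ∀ j < D.rank, S.vec j α ≤ S.vec j β := by
    intro α β hα hα' hβ hβ' u hu a b hb h
    obtain ⟨w, hw, e⟩ := conj_root_mod S F hα hα' hu a
    have hmem : S.xG F β b ∈ uSub D F (geSet S α) := by
      rw [← h, e]
      exact mul_mem (S.xG_mem_uSub F (P := geSet S α) (fun _ _ => le_rfl) hα' hα a)
        (uSub_mono (fun r hr => hr.2) hw)
    obtain ⟨t, ht, e'⟩ := S.exists_ordProd_half F (closed_ge S α) hmem
    rw [← ordProd_single S F hβ hβ'] at e'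
    have := S.ordProd_inj_half F e' hβ' hβ
    rw [Pi.single_eq_same] at this
    exact (ht β (this ▸ hb)).1
  have hb : b ≠ 0 := by
    rintro rfl
    rw [S.xG_zero, conj_eq_one_iff, S.xG_eq_one_iff F hα] at h
    exact ha h
  have h' : u⁻¹ * S.xG F β b * u⁻¹⁻¹ = S.xG F α a := by rw [← h]; group
  have hab : α = β := S.vec_inj α hα β hβ fun j hj =>
    le_antisymm (key hα hα' hβ hβ' hu hb h j hj) (key hβ hβ' hα hα' (inv_mem hu) ha h' j hj)
  subst hab
  refine ⟨rfl, ?_⟩
  obtain ⟨w, hw, e⟩ := conj_root_mod S F hα hα' hu a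
  rw [e] at h
  have hmem : S.xG F α (-a + b) ∈ uSub D F (aboveSet S α) := by
    rw [← S.xG_add, ← S.xG_inv, ← h, inv_mul_cancel_left]
    exact hw
  obtain ⟨t, ht, e'⟩ := S.exists_ordProd_half F (closed_above S α) hmem
  rw [← ordProd_single S F hα hα'] at e'
  have := S.ordProd_inj_half F e' hα' hα
  rw [Pi.single_eq_same] at this
  by_contra hne
  exact (ht α (this ▸ fun h0 => hne (neg_add_eq_zero.mp h0))).1.1 rfl

theorem torusVal_vec (c : ℕ → Fˣ) {r : ℕ} (hr : r < D.nroots) :
    torusVal D c r = ∏ m ∈ Finset.range D.rank, torusVal D c (D.simple m) ^ S.vec m r := by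
  simp only [torusVal, ← Finset.prod_zpow]
  rw [Finset.prod_comm]
  refine Finset.prod_congr rfl fun j hj => ?_
  rw [S.cartan_vec j (Finset.mem_range.mp hj) r hr, ← List.sum_toFinset _ List.nodup_range,
    List.toFinset_range]
  generalize Finset.range D.rank = A
  induction A using Finset.induction_on with
  | empty => simp
  | insert m A hm ih =>
    rw [Finset.sum_insert hm, Finset.prod_insert hm, zpow_add, ih, ← zpow_mul]
    congr 2
    ring

/-- A monomial element fixing the roots involving a fundamental root is in the torus. -/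
theorem perm_eq_one_of_fix {s : Fin D.rank} (hS : Spread S) (n : ↥(D.monomialSubgroup F))
    (h : ∀ r : Fin D.nroots, 0 < S.vec s r → S.perm F n r = r) : S.perm F n = 1 := by
  obtain ⟨L, e⟩ := S.exists_wperm F n
  rw [e] at h ⊢
  have hsimple : ∀ j : Fin D.rank, S.wperm L (S.simpleF j) = S.simpleF j := by
    intro j
    by_cases hjs : j = s
    · subst hjs
      refine h _ ?_
      have := S.vec_simple j j.isLt j j.isLt
      rw [if_pos rfl] at this
      change 0 < S.vec j (D.simple j)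
      omega
    obtain ⟨r, hr, hrv, hc⟩ := hS s s.isLt j j.isLt fun e => hjs (Fin.ext e)
    let r' : Fin D.nroots := ⟨D.reflectRoot j r, S.w_lt j j.isLt r hr⟩
    have hv : ∀ m < D.rank, S.vec m r' = S.vec m r + if m = (j : ℕ) then 1 else 0 := fun m hm => by
      change S.vec m (D.reflectRoot j r) = _
      rw [S.vec_w j j.isLt r hr m hm, hc]
      split_ifs <;> ring
    have h2 : S.wperm L r' = r' := h r' (by
      rw [hv s s.isLt, if_neg fun e => hjs (Fin.ext e.symm), add_zero]; exact hrv)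
    have h1 : S.wperm L ⟨r, hr⟩ = ⟨r, hr⟩ := h ⟨r, hr⟩ hrv
    refine Fin.ext (S.vec_inj _ (Fin.isLt _) _ (Fin.isLt _) fun m hm => ?_)
    have e1 := S.vec_wperm L r' m hm
    have e2 := S.vec_wperm L ⟨r, hr⟩ m hm
    rw [h2] at e1
    rw [h1] at e2
    have e3 : ∑ x : Fin D.rank, S.vec x r' * S.vec m (S.wperm L (S.simpleF x)) =
        ∑ x : Fin D.rank, S.vec x r * S.vec m (S.wperm L (S.simpleF x)) + S.vec m (S.wperm L (S.simpleF j)) := by
      rw [show S.vec m (S.wperm L (S.simpleF j)) = ∑ x : Fin D.rank,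
        (if x = j then (1 : ℤ) else 0) * S.vec m (S.wperm L (S.simpleF x)) by simp, ← Finset.sum_add_distrib]
      refine Finset.sum_congr rfl fun x _ => ?_
      rw [hv x x.isLt, add_mul]
      simp only [Fin.ext_iff]
    rw [e3, hv m hm] at e1
    change S.vec m (S.wperm L (S.simpleF j)) = S.vec m (D.simple j)
    rw [S.vec_simple j j.isLt m hm]
    simp only at e2
    linarith
  refine Equiv.ext fun r => Fin.ext (S.vec_inj _ (Fin.isLt _) _ (Fin.isLt _) fun m hm => ?_)
  rw [S.vec_wperm L r m hm, Equiv.Perm.one_apply, Finset.sum_eq_single_of_mem ⟨m, hm⟩ (Finset.mem_univ _),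
    hsimple]
  · change S.vec m r * S.vec m (D.simple m) = _
    rw [S.vec_simple m hm m hm, if_pos rfl, mul_one]
  · intro x _ hx
    rw [hsimple]
    change S.vec x r * S.vec m (D.simple x) = 0
    rw [S.vec_simple x x.isLt m hm, if_neg, mul_zero]
    exact fun e => hx (Fin.ext e.symm)

/-- An element of order prime to `p` centralising the radical of a maximal parabolic is trivial. -/
theorem eq_one_of_centralises [Fintype F] (p : ℕ) [Fact p.Prime] [CharP F p] (hS : Spread S)
    (s : (S.bnPair F).S) [Fintype (S.bnPair F).S] [DecidableEq (S.bnPair F).S] {x : ↥(D.group F)}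
    (hp : ¬ p ∣ orderOf x) (hx : ∀ q ∈ radU S F (Finset.univ.erase s), x * q = q * x) : x = 1 := by
  set i := genIdx S F s
  have hsi : simpleGen S F i = s := (genEquiv S F).apply_symm_apply s
  obtain ⟨u, hu, m, hm, v, hv, e⟩ := (splitData S F).exists_coset_rep (x : ↥(D.group F) ⧸ (splitData S F).U)
  obtain ⟨z, hz⟩ := QuotientGroup.mk_out_eq_mul (splitData S F).U x
  rw [hz] at e
  obtain ⟨v, hv, rfl⟩ : ∃ v ∈ (splitData S F).U, x = u * m * v :=
    ⟨v * (z : ↥(D.group F))⁻¹, mul_mem hv (inv_mem z.2), by rw [← mul_assoc, ← e]; group⟩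
  set y : ↥(D.group F) := v * (u * m * v) * v⁻¹ with hy
  have hy' : y = (v * u) * m := by rw [hy]; group
  have hcomm : ∀ g ∈ radU S F (Finset.univ.erase s), y * g = g * y := by
    intro g hg
    have hg' : v⁻¹ * g * v ∈ radU S F (Finset.univ.erase s) := by
      rw [radU, Subgroup.mem_subgroupOf]
      simpa using (Subgroup.mem_normalizer_iff.mp
        (posUnipotent_le_normalizer_out S F (Finset.univ.erase s) (inv_mem (show (v : GL D.Idx F) ∈ D.posUnipotent F from hv))) _).mp hg
    calc y * g = v * ((u * m * v) * (v⁻¹ * g * v)) * v⁻¹ := by rw [hy]; group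
      _ = v * ((v⁻¹ * g * v) * (u * m * v)) * v⁻¹ := by rw [hx _ hg']
      _ = g * y := by rw [hy]; group
  have hvu : ((v * u : ↥(D.group F)) : GL D.Idx F) ∈ D.posUnipotent F := mul_mem hv hu
  set n : ↥(D.monomialSubgroup F) := ⟨(m : GL D.Idx F), hm⟩
  have hroot : ∀ r : Fin D.nroots, 0 < S.vec i r → ∀ a : F, a ≠ 0 →
      (n : GL D.Idx F) * S.xG F r a * (n : GL D.Idx F)⁻¹ = S.xG F r a := by
    intro r hr a ha
    have hr' : D.nroots / 2 ≤ (r : ℕ) := S.pos_of_vec r.isLt i.isLt hr
    have hmem : (⟨S.xG F r a, xG_mem_group S F r r.isLt hr' a⟩ : ↥(D.group F)) ∈ radU S F (Finset.univ.erase s) := by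
      refine Subgroup.mem_subgroupOf.2 (S.xG_mem_uSub F (P := outC S F (Finset.univ.erase s)) ⟨i, ?_, hr⟩ hr' r.isLt a)
      rw [hsi]
      exact Finset.notMem_erase s _
    have h0 := congrArg Subtype.val (hcomm _ hmem)
    rw [hy'] at h0
    simp only [Subgroup.coe_mul] at h0
    have h1 : ((v : GL D.Idx F) * u)⁻¹ * S.xG F r a * ((v : GL D.Idx F) * u)⁻¹⁻¹ =
        (n : GL D.Idx F) * S.xG F r a * (n : GL D.Idx F)⁻¹ := by
      calc _ = ((v : GL D.Idx F) * u)⁻¹ * (S.xG F r a * ((v : GL D.Idx F) * u * (m : GL D.Idx F))) *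
            (n : GL D.Idx F)⁻¹ := by simp only [n]; group
        _ = _ := by rw [← h0]; simp only [n]; group
    obtain ⟨c, hc, hct⟩ := S.conj_root F n r
    rw [(hct a).1] at h1 ⊢
    by_cases hpos : D.nroots / 2 ≤ (S.perm F n r : ℕ)
    · obtain ⟨h2, h3⟩ := root_unique S F r.isLt hr' (Fin.isLt _) hpos (inv_mem hvu) ha h1
      rw [← h2, ← h3]
    · refine absurd ?_ (S.xG_neg_not_mem_borel F (r := (S.perm F n r : ℕ)) (by omega) (mul_ne_zero hc ha))
      rw [← h1]
      have hxr : S.xG F r a ∈ D.posUnipotent F := by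
        rw [← uSub_univ]; exact S.xG_mem_uSub F (Set.mem_univ _) hr' r.isLt a
      exact Subgroup.mem_sup_left (mul_mem (mul_mem (inv_mem hvu) hxr) (inv_mem (inv_mem hvu)))
  have hperm : S.perm F n = 1 := by
    refine perm_eq_one_of_fix S F hS (s := i) n fun r hr => ?_
    have hr' : D.nroots / 2 ≤ (r : ℕ) := S.pos_of_vec r.isLt i.isLt hr
    obtain ⟨c, hc, hct⟩ := S.conj_root F n r
    have h1 := hroot r hr 1 one_ne_zero
    rw [(hct 1).1] at h1
    have hpos : D.nroots / 2 ≤ (S.perm F n r : ℕ) := by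
      by_contra hlt
      refine S.xG_neg_not_mem_borel F (r := (S.perm F n r : ℕ)) (by omega) (mul_ne_zero hc one_ne_zero) ?_
      rw [h1]
      exact Subgroup.mem_sup_left (by rw [← uSub_univ]; exact S.xG_mem_uSub F (Set.mem_univ _) hr' r.isLt 1)
    exact Fin.ext (root_unique S F (Fin.isLt _) hpos r.isLt hr' (one_mem _) (mul_ne_zero hc one_ne_zero)
      (b := 1) (by rw [h1]; group)).1
  have hmem : n ∈ hSub D F := by rw [← S.ker_perm F]; exact hperm
  rw [hSub, Subgroup.mem_subgroupOf, S.diagonal_eq] at hmem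
  obtain ⟨c, hc⟩ := hmem
  have hval : ∀ r : Fin D.nroots, 0 < S.vec i r → torusVal D c r = 1 := fun r hr => Units.ext (by
    rw [Units.val_one]
    exact S.torusVal_eq_one_of_commute F c r.isLt one_ne_zero (by rw [hc]; exact hroot r hr 1 one_ne_zero))
  have hsimple : ∀ j < D.rank, torusVal D c (D.simple j) = 1 := by
    intro j hj
    by_cases hjs : j = (i : ℕ)
    · subst hjs
      refine hval (S.simpleF i) ?_
      change 0 < S.vec i (D.simple i)
      rw [S.vec_simple i i.isLt i i.isLt, if_pos rfl]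
      exact one_pos
    obtain ⟨r, hr, hrv, hcr⟩ := hS i i.isLt j hj hjs
    have hr' := S.w_lt j hj r hr
    have hv : ∀ m < D.rank, S.vec m (D.reflectRoot j r) = S.vec m r + if m = j then 1 else 0 := fun m hm => by
      rw [S.vec_w j hj r hr m hm, hcr]
      split_ifs <;> ring
    have h2 := hval ⟨_, hr'⟩ (by
      change 0 < S.vec i (D.reflectRoot j r)
      rw [hv i i.isLt, if_neg (Ne.symm hjs), add_zero]; exact hrv)
    have h1 := hval ⟨r, hr⟩ hrv
    simp only [torusVal_vec S F c hr, torusVal_vec S F c hr'] at h1 h2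
    have e3 : ∏ x ∈ Finset.range D.rank, torusVal D c (D.simple x) ^ S.vec x (D.reflectRoot j r) =
        (∏ x ∈ Finset.range D.rank, torusVal D c (D.simple x) ^ S.vec x r) * torusVal D c (D.simple j) := by
      rw [show torusVal D c (D.simple j) = ∏ x ∈ Finset.range D.rank,
        if x = j then torusVal D c (D.simple x) else 1 by
          rw [Finset.prod_ite_eq', if_pos (Finset.mem_range.2 hj)]]
      rw [← Finset.prod_mul_distrib]
      refine Finset.prod_congr rfl fun x hx => ?_
      rw [hv x (Finset.mem_range.1 hx), zpow_add]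
      congr 1
      split_ifs <;> simp [Finset.prod_ite_eq', Finset.mem_range.2 hj]
    rw [e3, h1, one_mul] at h2
    exact h2
  have hm1 : m = 1 := Subtype.ext <| hc.symm.trans
    (S.tor_eq_one_of_simple F c fun j hj => by rw [hsimple j hj, Units.val_one])
  subst hm1
  rw [mul_one] at hy'
  have hord : orderOf y = orderOf (u * 1 * v) := by
    rw [hy, show v * (u * 1 * v) * v⁻¹ = MulAut.conj v (u * 1 * v) from rfl, MulEquiv.orderOf_eq]
  obtain ⟨k, hk⟩ := IsPGroup.iff_orderOf.1 (isPGroup_posUnipotent S F p) ⟨y, hy' ▸ mul_mem hv hu⟩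
  rw [Subgroup.orderOf_mk, hord] at hk
  have hk0 : k = 0 := by
    by_contra hk0
    exact hp (hk ▸ dvd_pow_self p hk0)
  rw [hk0, pow_zero, orderOf_eq_one_iff] at hk
  exact hk

end CfsgLib.SteinbergChar
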