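import Cfsg.Agent.SteinbergChar.Modular
import Cfsg.Agent.SteinbergChar.Longest

/-!
Eigenvectors of the torus and of the fundamental operators in modules of a split (B, N)-pair in
characteristic `p`: a module generated by such a vector is spanned by the translates under the
opposite unipotent subgroup, so it determines, and is determined by, its eigenvalues.
-/

set_option autoImplicit false

open scoped MonoidAlgebra Matrix

namespace CfsgLib.SteinbergChar

open CfsgLib.BNPair CfsgLib.SlBlocks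

section Fixed

variable {G : Type*} [Group G] {k : Type*} [Field k] {M : Type*} [AddCommGroup M] [Module k M]

/-- A `p`-subgroup fixes a nonzero vector in the span of the translates of any nonzero vector. -/
theorem exists_fixed_span {p : ℕ} [Fact p.Prime] [CharP k p] {U : Subgroup G} [Finite U] (hU : IsPGroup p U)
    (ρ : G →* (M →ₗ[k] M)) {a : M} (ha : a ≠ 0) :
    ∃ b : M, b ≠ 0 ∧ (∀ u ∈ U, ρ u b = b) ∧ b ∈ Submodule.span k (Set.range fun u : U => ρ u a) := by
  classical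
  have := Fintype.ofFinite U
  let Φ : (U → ZMod p) →+ M :=
    ∑ u : U, (((smulAddHom k M).flip (ρ u a)).comp
      ((ZMod.castHom dvd_rfl k).toAddMonoidHom.comp (Pi.evalAddMonoidHom (fun _ : U => ZMod p) u)))
  have hΦ : ∀ c, Φ c = ∑ u : U, (ZMod.castHom dvd_rfl k (c u)) • ρ u a := fun c => by
    simp [Φ, AddMonoidHom.finsetSum_apply]
  have hmem : ∀ (v : U) (c : U → ZMod p), ρ v (Φ c) = Φ fun u => c (v⁻¹ * u) := by
    intro v c
    rw [hΦ, hΦ, map_sum]
    refine Fintype.sum_equiv (Equiv.mulLeft v) _ _ fun u => ?_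
    rw [Equiv.coe_mulLeft, inv_mul_cancel_left, map_smul, Subgroup.coe_mul, map_mul]
    rfl
  let X := (Φ.range : AddSubgroup M)
  haveI : Finite X := Finite.of_surjective (fun c => (⟨Φ c, c, rfl⟩ : X))
    (fun x => by obtain ⟨c, hc⟩ := x.2; exact ⟨c, Subtype.ext hc⟩)
  letI : MulAction U X :=
    { smul := fun v x => ⟨ρ v x.1, by
        obtain ⟨c, hc⟩ := x.2
        exact ⟨fun u => c (v⁻¹ * u), by rw [← hmem, hc]⟩⟩
      one_smul := fun x => Subtype.ext (by
        show ρ ((1 : U) : G) x.1 = x.1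
        rw [OneMemClass.coe_one, map_one]; rfl)
      mul_smul := fun v w x => Subtype.ext (by
        show ρ ((v * w : U) : G) x.1 = ρ v (ρ w x.1)
        rw [Subgroup.coe_mul, map_mul]; rfl) }
  have ha' : a ∈ X := ⟨Pi.single 1 1, by
    rw [hΦ, Finset.sum_eq_single (1 : U)]
    · rw [Pi.single_eq_same, map_one, one_smul, OneMemClass.coe_one, map_one]; rfl
    · intro u _ hu; simp [hu]
    · simp⟩
  have hdvd : p ∣ Nat.card X := by
    have hne : (⟨a, ha'⟩ : X) ≠ 0 := fun h => ha (congrArg Subtype.val h)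
    have hpx : p • (⟨a, ha'⟩ : X) = 0 := Subtype.ext (by
      simp only [AddSubmonoidClass.coe_nsmul, ZeroMemClass.coe_zero]
      rw [← Nat.cast_smul_eq_nsmul k, CharP.cast_eq_zero, zero_smul])
    rw [← addOrderOf_eq_prime hpx hne]
    exact addOrderOf_dvd_natCard _
  have h0 : (0 : X) ∈ MulAction.fixedPoints U X := fun v => Subtype.ext (map_zero (ρ v))
  obtain ⟨b, hb, hb0⟩ := hU.exists_fixed_point_of_prime_dvd_card_of_fixed_point X hdvd h0
  refine ⟨b.1, fun h => hb0 (Subtype.ext h.symm), fun u hu => congrArg Subtype.val (hb ⟨u, hu⟩), ?_⟩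
  obtain ⟨c, hc⟩ := b.2
  rw [← hc, hΦ]
  exact Submodule.sum_mem _ fun u _ => Submodule.smul_mem _ _ (Submodule.subset_span ⟨u, rfl⟩)

end Fixed

namespace SplitData

variable {G : Type*} [Group G] {P : Cfsg.BNPair G} {F : Type*} [Field F] (d : SplitData P F)
  [Fintype F] {k : Type*} [Field k] {M : Type*} [AddCommGroup M] [Module k M]

/-- A vector fixed by `U`, an eigenvector of the torus and of the fundamental operators. -/
structure Good (ρ : G →* (M →ₗ[k] M)) (θ : G → k) (c : P.S → k) (w : M) : Prop where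
  fix : ∀ u ∈ d.U, ρ u w = w
  eig : ∀ h ∈ P.B ⊓ P.N, ρ h w = θ h • w
  tau : ∀ s : P.S, ∑ t : F, ρ (d.x s t * s.1) w = c s • w

variable [Finite G]

/-- The module of an eigenvector is spanned by the translates under the opposite unipotent subgroup. -/
theorem Good.mem_span {ρ : G →* (M →ₗ[k] M)} {θ : G → k} {c : P.S → k} {w : M} (hw : d.Good ρ θ c w)
    {w₁ : Weyl P} (hw₁ : ∀ x, (InWord P Set.univ x ∧ ∀ s ∈ (Set.univ : Set P.S), len P (x * gen P s) < len P x) ↔ x = w₁)
    {n₀ : G} (hn₀ : n₀ ∈ P.N) (hn₀w : toW P n₀ hn₀ = w₁) :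
    ∀ g, ρ g w ∈ Submodule.span k (Set.range fun u : d.U => ρ ((u : G) * n₀) w) := by
  set S := Submodule.span k (Set.range fun u : d.U => ρ ((u : G) * n₀) w) with hS
  have hin : ∀ x : Weyl P, InWord P Set.univ x := fun x => by
    obtain ⟨L, hL⟩ := exists_word P x
    exact ⟨L, fun s _ => Set.mem_univ s, hL⟩
  have key : ∀ j : ℕ, ∀ x : Weyl P, len P w₁ - len P x ≤ j → ∀ g ∈ cell P x, ρ g w ∈ S := by
    intro j
    induction j with
    | zero =>
      intro x hx g hg
      have hxw : x = w₁ := by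
        refine (hw₁ x).1 ⟨hin x, fun s _ => ?_⟩
        have h1 := len_longest_mul P hw₁ (hin (x * gen P s))
        have h2 := len_longest_mul P hw₁ (hin x)
        have h3 := len_mul_gen_ne P x s
        omega
      obtain ⟨n, hn, rfl, hgn⟩ := hg
      have hg' : g ∈ DoubleCoset.doubleCoset n₀ (P.B : Set G) P.B :=
        (mem_cell_toW P hn₀).1 ⟨n, hn, hxw.trans hn₀w.symm, hgn⟩
      obtain ⟨b, hb, b', hb', rfl⟩ := (mem_dc P).1 hg'
      obtain ⟨u, hu, h, hh, rfl⟩ := d.decomp b hb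
      obtain ⟨u', hu', h', hh', rfl⟩ := d.decomp b' hb'
      have hh'' : n₀⁻¹ * h * n₀ ∈ P.B ⊓ P.N := Subgroup.mem_inf.2
        ⟨by simpa using P.conj_mem n₀⁻¹ (inv_mem hn₀) h hh, mul_mem (mul_mem (inv_mem hn₀) (Subgroup.mem_inf.1 hh).2) hn₀⟩
      have e : u * h * n₀ * (u' * h') = (u * n₀) * (n₀⁻¹ * h * n₀) * (h' * (h'⁻¹ * u' * h')) := by group
      have e2 : ρ (h' * (h'⁻¹ * u' * h')) w = θ h' • w := by
        rw [map_mul, Module.End.mul_apply, hw.fix _ (d.conj_U' hh' hu'), hw.eig _ hh']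
      rw [e, map_mul ρ (u * n₀ * (n₀⁻¹ * h * n₀)), map_mul ρ (u * n₀), Module.End.mul_apply, Module.End.mul_apply,
        e2, map_smul, hw.eig _ hh'', map_smul, map_smul]
      exact S.smul_mem _ (S.smul_mem _ (Submodule.subset_span ⟨⟨u, hu⟩, rfl⟩))
    | succ j ih =>
      intro x hx g hg
      by_cases hasc : ∃ s, len P x < len P (x * gen P s)
      swap
      · push Not at hasc
        refine ih x ?_ g hg
        have hxw : x = w₁ := (hw₁ x).1 ⟨hin x, fun s _ => lt_of_le_of_ne (hasc s) (len_mul_gen_ne P x s)⟩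
        rw [hxw, Nat.sub_self]
        exact Nat.zero_le j
      obtain ⟨s, hs⟩ := hasc
      have hlen : len P w₁ - len P (x * gen P s) ≤ j := by omega
      have hcell : ∀ y ∈ cell P (gen P s), g * y ∈ cell P (x * gen P s) := by
        intro y hy
        have hle : len P x⁻¹ ≤ len P (gen P s * x⁻¹) := by
          rw [len_inv, show gen P s * x⁻¹ = (x * gen P s)⁻¹ by rw [mul_inv_rev, gen_inv], len_inv]
          omega
        have h1 := cell_gen_mul_of_le P s hle (g := y⁻¹) (h := g⁻¹)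
          (by have := inv_mem_cell P hy; rwa [gen_inv] at this) (inv_mem_cell P hg)
        have h2 := inv_mem_cell P h1
        simp only [mul_inv_rev, inv_inv, gen_inv] at h2
        exact h2
      have hn : s.1⁻¹ ∈ cell P (gen P s) := by
        have := inv_mem_cell P (self_mem_cell_gen P s)
        rwa [gen_inv] at this
      have hterm : ∀ t : F, t ≠ 0 → ρ (g * s.1⁻¹ * (d.x s t * s.1)) w ∈ S := by
        intro t ht
        have hy : s.1⁻¹ * (d.x s t * s.1) ∈ cell P (gen P s) := by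
          have h1 : d.x s t * s.1 ∈ cell P (gen P s) :=
            cell_mul_left P (d.le_B (d.x_mem _ _)) (self_mem_cell_gen P s)
          have h2 := cell_gen_mul P s hn h1
          rw [gen_mul_self, cell_one] at h2
          exact h2.resolve_left (by rw [← mul_assoc]; exact d.x_cell s t ht)
        rw [mul_assoc]
        exact ih _ hlen _ (hcell _ hy)
      have hsum := congrArg (ρ (g * s.1⁻¹)) (hw.tau s)
      classical
      rw [map_sum, map_smul, Fintype.sum_eq_add_sum_subtype_ne _ (0 : F)] at hsum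
      simp only [← Module.End.mul_apply, ← map_mul] at hsum
      rw [d.x_zero, one_mul, inv_mul_cancel_right, ← eq_sub_iff_add_eq] at hsum
      rw [hsum]
      exact S.sub_mem (S.smul_mem _ (ih _ hlen _ (hcell _ hn))) (S.sum_mem fun t _ => hterm t.1 t.2)
  intro g
  obtain ⟨n, hn, hg⟩ := exists_mem_dc P g
  have hnN := closure_le_N P subset_rfl hn
  exact key _ (toW P n hnN) (le_refl _) g ((mem_cell_toW P hnN).2 hg)

end SplitData

section Matrices

variable {G : Type*} [Group G] {k : Type*} [Field k]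

/-- A matrix representation as endomorphisms of the columns. -/
noncomputable def vecRep {ι : Type*} [Fintype ι] [DecidableEq ι] (A : G →* Matrix ι ι k) :
    G →* ((ι → k) →ₗ[k] (ι → k)) :=
  (Matrix.toLinAlgEquiv' : Matrix ι ι k ≃ₐ[k] _).toMonoidHom.comp A

theorem vecRep_apply {ι : Type*} [Fintype ι] [DecidableEq ι] (A : G →* Matrix ι ι k) (g : G) (m : ι → k) :
    vecRep A g m = A g *ᵥ m := rfl

/-- The contragredient of a matrix representation. -/
def dualRep {ι : Type*} [Fintype ι] [DecidableEq ι] (A : G →* Matrix ι ι k) : G →* Matrix ι ι k where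
  toFun g := (A g⁻¹)ᵀ
  map_one' := by rw [inv_one, map_one, Matrix.transpose_one]
  map_mul' g h := by rw [mul_inv_rev, map_mul, Matrix.transpose_mul]

/-- The product of two representations. -/
def prodRep {M M' : Type*} [AddCommGroup M] [Module k M] [AddCommGroup M'] [Module k M']
    (ρ : G →* (M →ₗ[k] M)) (ρ' : G →* (M' →ₗ[k] M')) : G →* (M × M' →ₗ[k] M × M') where
  toFun g := (ρ g).prodMap (ρ' g)
  map_one' := LinearMap.ext fun x => by simp
  map_mul' g h := LinearMap.ext fun x => by simp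

/-- The matrices of the representation span everything. -/
def Irr {ι : Type*} [Fintype ι] [DecidableEq ι] [Fintype G] (A : G →* Matrix ι ι k) : Prop :=
  ∀ X : Matrix ι ι k, ∃ a : G → k, ∑ g, a g • A g = X

variable {ι : Type*} [Fintype ι] [DecidableEq ι] [Fintype G] {A : G →* Matrix ι ι k}

theorem Irr.dual (hA : Irr A) : Irr (dualRep A) := by
  intro X
  obtain ⟨a, ha⟩ := hA Xᵀ
  refine ⟨fun g => a g⁻¹, ?_⟩
  rw [← Matrix.transpose_transpose X, ← ha, Matrix.transpose_sum]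
  refine Fintype.sum_equiv (Equiv.inv G) _ _ fun g => ?_
  rw [Matrix.transpose_smul]
  rfl

theorem Irr.span_eq_top (hA : Irr A) {x : ι → k} (hx : x ≠ 0) :
    Submodule.span k (Set.range fun g => A g *ᵥ x) = ⊤ := by
  obtain ⟨i, hi⟩ := Function.ne_iff.1 hx
  refine Submodule.eq_top_iff'.2 fun y => ?_
  obtain ⟨a, ha⟩ := hA (Matrix.vecMulVec y (Pi.single i (x i)⁻¹))
  have e : y = ∑ g, a g • (A g *ᵥ x) := by
    rw [show (∑ g, a g • (A g *ᵥ x)) = (∑ g, a g • A g) *ᵥ x by
      rw [Matrix.sum_mulVec]; exact Finset.sum_congr rfl fun g _ => (Matrix.smul_mulVec _ _ _).symm, ha,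
      Matrix.vecMulVec_mulVec, single_dotProduct, inv_mul_cancel₀ hi]
    simp
  rw [e]
  exact Submodule.sum_mem _ fun g _ => Submodule.smul_mem _ _ (Submodule.subset_span ⟨g, rfl⟩)

end Matrices

namespace SplitData

variable {G : Type*} [Group G] [Fintype G] {P : Cfsg.BNPair G} {F : Type*} [Field F] (d : SplitData P F)
  [Fintype F] {k : Type*} [Field k] {p : ℕ} [Fact p.Prime] [CharP k p]
  {ι ι' : Type*} [Fintype ι] [DecidableEq ι] [Fintype ι'] [DecidableEq ι']
  {w₁ : Weyl P} (hw₁ : ∀ x, (InWord P Set.univ x ∧ ∀ s ∈ (Set.univ : Set P.S), len P (x * gen P s) < len P x) ↔ x = w₁)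

include hw₁ in
omit [Fact p.Prime] [CharP k p] in
theorem Good.span_top {A : G →* Matrix ι ι k} (hA : Irr A) {θ : G → k} {c : P.S → k} {w : ι → k}
    (hw : d.Good (vecRep A) θ c w) (hw0 : w ≠ 0) {n₀ : G} (hn₀ : n₀ ∈ P.N) (hn₀w : toW P n₀ hn₀ = w₁) :
    Submodule.span k (Set.range fun u : d.U => A u *ᵥ (A n₀ *ᵥ w)) = ⊤ := by
  rw [eq_top_iff, ← hA.span_eq_top hw0, Submodule.span_le]
  rintro _ ⟨g, rfl⟩
  have h := Good.mem_span d hw hw₁ hn₀ hn₀w g
  simp only [vecRep_apply, map_mul, ← Matrix.mulVec_mulVec] at h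
  exact h

include hw₁ in
/-- A functional invariant under `U` does not vanish on the opposite translate. -/
theorem Good.exists_invariant (hU : IsPGroup p d.U) {A : G →* Matrix ι ι k} (hA : Irr A) {θ : G → k}
    {c : P.S → k} {w : ι → k} (hw : d.Good (vecRep A) θ c w) (hw0 : w ≠ 0) {n₀ : G} (hn₀ : n₀ ∈ P.N)
    (hn₀w : toW P n₀ hn₀ = w₁) :
    ∃ ψ : ι → k, (∀ u ∈ d.U, ∀ m, ψ ⬝ᵥ (A u *ᵥ m) = ψ ⬝ᵥ m) ∧ ψ ⬝ᵥ (A n₀ *ᵥ w) ≠ 0 := by
  obtain ⟨i, hi⟩ := Function.ne_iff.1 hw0
  obtain ⟨ψ, hψ0, hψ, -⟩ := exists_fixed_span hU (vecRep (dualRep A))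
    (a := Pi.single i (1 : k)) (fun h => by simpa using congrFun h i)
  have hinv : ∀ u ∈ d.U, ∀ m, ψ ⬝ᵥ (A u *ᵥ m) = ψ ⬝ᵥ m := by
    intro u hu m
    have h := hψ u⁻¹ (inv_mem hu)
    rw [vecRep_apply] at h
    simp only [dualRep, MonoidHom.coe_mk, OneHom.coe_mk, inv_inv] at h
    rw [Matrix.dotProduct_mulVec, ← Matrix.mulVec_transpose, h]
  refine ⟨ψ, hinv, fun h0 => hψ0 (dotProduct_eq_zero _ fun m => ?_)⟩
  have hm : m ∈ Submodule.span k (Set.range fun u : d.U => A u *ᵥ (A n₀ *ᵥ w)) := by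
    rw [Good.span_top d hw₁ hA hw hw0 hn₀ hn₀w]; exact Submodule.mem_top
  induction hm using Submodule.span_induction with
  | mem x hx =>
    obtain ⟨u, rfl⟩ := hx
    rw [hinv _ u.2, h0]
  | zero => exact dotProduct_zero _
  | add x y _ _ hx hy => rw [dotProduct_add, hx, hy, add_zero]
  | smul r x _ hx => rw [dotProduct_smul, hx, smul_zero]

include hw₁ in
omit [Fact p.Prime] [CharP k p] in
/-- When the contragredient has an eigenvector the fixed vectors lie on one line. -/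
theorem fixed_line {A : G →* Matrix ι ι k} (hA : Irr A) {θ : G → k} {c : P.S → k} {ψ : ι → k}
    (hψ : d.Good (vecRep (dualRep A)) θ c ψ) (hψ0 : ψ ≠ 0) {n₀ : G} (hn₀ : n₀ ∈ P.N)
    (hn₀w : toW P n₀ hn₀ = w₁) {x x' : ι → k} (hx : ∀ u ∈ d.U, A u *ᵥ x = x) (hx' : ∀ u ∈ d.U, A u *ᵥ x' = x')
    (hx0 : x ≠ 0) : ∃ r : k, x' = r • x := by
  set φ := dualRep A n₀ *ᵥ ψ with hφ
  have hinj : ∀ y : ι → k, (∀ u ∈ d.U, A u *ᵥ y = y) → φ ⬝ᵥ y = 0 → y = 0 := by
    intro y hy h0
    refine dotProduct_eq_zero _ fun m => ?_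
    rw [dotProduct_comm]
    have hm : m ∈ Submodule.span k (Set.range fun u : d.U => dualRep A u *ᵥ φ) := by
      rw [hφ, Good.span_top d hw₁ hA.dual hψ hψ0 hn₀ hn₀w]; exact Submodule.mem_top
    induction hm using Submodule.span_induction with
    | mem z hz =>
      obtain ⟨u, rfl⟩ := hz
      simp only [dualRep, MonoidHom.coe_mk, OneHom.coe_mk]
      rw [Matrix.mulVec_transpose, ← Matrix.dotProduct_mulVec, hy _ (inv_mem u.2)]
      exact h0
    | zero => exact zero_dotProduct _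
    | add a b _ _ ha hb => rw [add_dotProduct, ha, hb, add_zero]
    | smul r a _ ha => rw [smul_dotProduct, ha, smul_zero]
  have hne : φ ⬝ᵥ x ≠ 0 := fun h => hx0 (hinj x hx h)
  refine ⟨(φ ⬝ᵥ x') / (φ ⬝ᵥ x), sub_eq_zero.1 (hinj _ (fun u hu => ?_) ?_)⟩
  · rw [Matrix.mulVec_sub, Matrix.mulVec_smul, hx u hu, hx' u hu]
  · rw [dotProduct_sub, dotProduct_smul, smul_eq_mul, div_mul_cancel₀ _ hne, sub_self]

include hw₁ in
/-- Two modules separated by the group algebra have no common eigenvalues. -/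
theorem good_exclusive (hU : IsPGroup p d.U) {A : G →* Matrix ι ι k} {A' : G →* Matrix ι' ι' k} (hA : Irr A)
    (hA' : Irr A') {θ : G → k} {c : P.S → k} {w : ι → k} {w' : ι' → k} (hw : d.Good (vecRep A) θ c w)
    (hw' : d.Good (vecRep A') θ c w') (hw0 : w ≠ 0) (hw0' : w' ≠ 0) {n₀ : G} (hn₀ : n₀ ∈ P.N)
    (hn₀w : toW P n₀ hn₀ = w₁) {a : G → k} (ha : ∑ g, a g • A g = 1) (ha' : ∑ g, a g • A' g = 0) : False := by
  obtain ⟨ψ, hψ, hψy⟩ := Good.exists_invariant d hw₁ hU hA hw hw0 hn₀ hn₀w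
  obtain ⟨ψ', hψ', hψy'⟩ := Good.exists_invariant d hw₁ hU hA' hw' hw0' hn₀ hn₀w
  set y := A n₀ *ᵥ w
  set y' := A' n₀ *ᵥ w'
  have hpair : d.Good (prodRep (vecRep A) (vecRep A')) θ c (w, w') :=
    ⟨fun u hu => Prod.ext (hw.fix u hu) (hw'.fix u hu), fun h hh => Prod.ext (hw.eig h hh) (hw'.eig h hh),
      fun s => Prod.ext (by rw [Prod.fst_sum]; exact hw.tau s) (by rw [Prod.snd_sum]; exact hw'.tau s)⟩
  set S := Submodule.span k (Set.range fun u : d.U => prodRep (vecRep A) (vecRep A') ((u : G) * n₀) (w, w'))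
  have hmem : (y, (0 : ι' → k)) ∈ S := by
    have e : (y, (0 : ι' → k)) = ∑ g, a g • prodRep (vecRep A) (vecRep A') (g * n₀) (w, w') := by
      refine Prod.ext ?_ ?_
      · rw [Prod.fst_sum]
        change y = ∑ g, a g • (A (g * n₀) *ᵥ w)
        simp only [map_mul, ← Matrix.mulVec_mulVec, ← Matrix.smul_mulVec]
        rw [← Matrix.sum_mulVec, ha, Matrix.one_mulVec]
      · rw [Prod.snd_sum]
        change 0 = ∑ g, a g • (A' (g * n₀) *ᵥ w')
        simp only [map_mul, ← Matrix.mulVec_mulVec, ← Matrix.smul_mulVec]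
        rw [← Matrix.sum_mulVec, ha', Matrix.zero_mulVec]
    rw [e]
    exact S.sum_mem fun g _ => S.smul_mem _ (Good.mem_span d hpair hw₁ hn₀ hn₀w _)
  have hvan : ∀ z ∈ S, (ψ ⬝ᵥ y) * (ψ' ⬝ᵥ z.2) = (ψ' ⬝ᵥ y') * (ψ ⬝ᵥ z.1) := by
    intro z hz
    induction hz using Submodule.span_induction with
    | mem z hz =>
      obtain ⟨u, rfl⟩ := hz
      change (ψ ⬝ᵥ y) * (ψ' ⬝ᵥ (A' ((u : G) * n₀) *ᵥ w')) = (ψ' ⬝ᵥ y') * (ψ ⬝ᵥ (A ((u : G) * n₀) *ᵥ w))
      rw [map_mul, map_mul, ← Matrix.mulVec_mulVec, ← Matrix.mulVec_mulVec, hψ' _ u.2, hψ _ u.2, mul_comm]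
    | zero => simp
    | add a b _ _ ha hb => rw [Prod.snd_add, Prod.fst_add, dotProduct_add, dotProduct_add, mul_add, mul_add, ha, hb]
    | smul r a _ ha => rw [Prod.smul_snd, Prod.smul_fst, dotProduct_smul, dotProduct_smul, smul_eq_mul, smul_eq_mul, mul_left_comm, ha, mul_left_comm]
  have h := hvan _ hmem
  rw [dotProduct_zero, mul_zero] at h
  exact mul_ne_zero hψy' hψy h.symm

end SplitData

end CfsgLib.SteinbergChar
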